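import Mathlib
import Cfsg.Agent.Lib.Helper6.D4Tab

/-!
The action of the root elements of `O₈⁺` on alternating `8 × 8` matrices, in a basis matching the
tables of `chevD4`.
-/

namespace Cfsg.Agent.Lib.Helper6.D4
open Matrix

abbrev I := Fin 4 ⊕ Fin 4

def P : Fin 24 → I := ![.inr 1, .inr 2, .inl 3, .inr 3, .inr 0, .inl 1, .inr 1, .inr 1, .inr 1, .inl 2, .inl 3, .inr 3, .inl 2, .inl 2, .inl 1, .inl 3, .inr 3, .inl 2, .inl 0, .inr 2, .inl 0, .inl 0, .inl 0, .inl 0]

def Qt : Fin 24 → I := ![.inr 0, .inr 0, .inr 0, .inr 0, .inl 2, .inr 0, .inr 2, .inl 3, .inr 3, .inr 1, .inr 2, .inr 2, .inl 3, .inr 3, .inr 2, .inl 1, .inl 1, .inl 1, .inr 1, .inl 0, .inl 3, .inr 3, .inl 2, .inl 1]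


section ring
variable {R : Type*} [CommRing R]

def XA (v : Idx → R) : Matrix (Fin 4) (Fin 4) R :=
  !![0, v (.inr 23), v (.inr 22), v (.inr 20);
     - v (.inr 23), 0, - v (.inr 17), - v (.inr 15);
     - v (.inr 22), v (.inr 17), 0, v (.inr 12);
     - v (.inr 20), v (.inr 15), - v (.inr 12), 0]

def XB (v : Idx → R) : Matrix (Fin 4) (Fin 4) R :=
  !![v (.inl 0), v (.inr 18), - v (.inr 19), v (.inr 21);
     v (.inr 5), - v (.inl 0) + v (.inl 1), v (.inr 14), - v (.inr 16);
     - v (.inr 4), v (.inr 9), - v (.inl 1) + v (.inl 2) + v (.inl 3), v (.inr 13);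
     v (.inr 2), - v (.inr 7), v (.inr 10), - v (.inl 2) + v (.inl 3)]

def XC (v : Idx → R) : Matrix (Fin 4) (Fin 4) R :=
  !![- v (.inl 0), - v (.inr 5), v (.inr 4), - v (.inr 2);
     - v (.inr 18), v (.inl 0) - v (.inl 1), - v (.inr 9), v (.inr 7);
     v (.inr 19), - v (.inr 14), v (.inl 1) - v (.inl 2) - v (.inl 3), - v (.inr 10);
     - v (.inr 21), v (.inr 16), - v (.inr 13), v (.inl 2) - v (.inl 3)]

def XD (v : Idx → R) : Matrix (Fin 4) (Fin 4) R :=
  !![0, - v (.inr 0), - v (.inr 1), - v (.inr 3);
     v (.inr 0), 0, v (.inr 6), v (.inr 8);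
     v (.inr 1), - v (.inr 6), 0, - v (.inr 11);
     v (.inr 3), - v (.inr 8), v (.inr 11), 0]

/-- the alternating matrix with given coordinates -/
def X (v : Idx → R) : Matrix I I R := Matrix.fromBlocks (XA v) (XB v) (XC v) (XD v)

set_option maxHeartbeats 2000000 in
theorem X_map {S : Type*} [CommRing S] (f : R →+* S) (v : Idx → R) :
    (X v).map f = X (fun i => f (v i)) := by
  ext i j
  rcases i with i | i <;> rcases j with j | j <;> fin_cases i <;> fin_cases j <;>
    simp [X, XA, XB, XC, XD]

set_option maxHeartbeats 2000000 in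
def Xl : (Idx → R) →ₗ[R] Matrix I I R where
  toFun := X
  map_add' u v := by
    ext i j
    rcases i with i | i <;> rcases j with j | j <;> fin_cases i <;> fin_cases j <;>
      simp [X, XA, XB, XC, XD] <;> ring
  map_smul' c v := by
    ext i j
    rcases i with i | i <;> rcases j with j | j <;> fin_cases i <;> fin_cases j <;>
      simp [X, XA, XB, XC, XD] <;> ring

/-- basis elements -/
def B (c : Idx) : Matrix I I R := X (Pi.single c 1)

theorem B_map {S : Type*} [CommRing S] (f : R →+* S) (c : Idx) :
    (B c : Matrix _ _ R).map f = B c := by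
  rw [B, X_map, B]
  congr 1
  funext i
  by_cases h : i = c
  · subst h; simp
  · simp [Pi.single_eq_of_ne h]

/-- the nilpotent part of a root element -/
def N (p q : I) : Matrix I I R := Matrix.single p q.swap 1 - Matrix.single q p.swap 1

def act1 (p q : I) (W : Matrix I I R) : Matrix I I R := fun i j =>
  (if i = p then W q.swap j else 0) - (if i = q then W p.swap j else 0) +
    ((if j = p then W i q.swap else 0) - (if j = q then W i p.swap else 0))

def act2 (p q : I) (W : Matrix I I R) : Matrix I I R := fun i j =>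
  (if j = p then ((if i = p then W q.swap q.swap else 0) - (if i = q then W p.swap q.swap else 0))
    else 0) -
  (if j = q then ((if i = p then W q.swap p.swap else 0) - (if i = q then W p.swap p.swap else 0))
    else 0)

theorem single_mul_apply' (p k : I) (W : Matrix I I R) (i j : I) :
    (Matrix.single p k (1 : R) * W) i j = if i = p then W k j else 0 := by
  split_ifs with h
  · subst h
    simp
  · exact Matrix.single_mul_apply_of_ne _ _ _ _ _ h _

theorem mul_single_apply' (p k : I) (W : Matrix I I R) (i j : I) :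
    (W * Matrix.single k p (1 : R)) i j = if j = p then W i k else 0 := by
  split_ifs with h
  · subst h
    simp
  · exact Matrix.mul_single_apply_of_ne _ _ _ _ _ h _

theorem N_mul (p q : I) (W : Matrix I I R) (i j : I) :
    ((N p q : Matrix I I R) * W) i j =
      (if i = p then W q.swap j else 0) - (if i = q then W p.swap j else 0) := by
  rw [N, Matrix.sub_mul, Matrix.sub_apply, single_mul_apply', single_mul_apply']

theorem mul_Nt (p q : I) (W : Matrix I I R) (i j : I) :
    (W * (N p q : Matrix I I R)ᵀ) i j =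
      (if j = p then W i q.swap else 0) - (if j = q then W i p.swap else 0) := by
  rw [N, Matrix.transpose_sub, Matrix.transpose_single, Matrix.transpose_single, Matrix.mul_sub,
    Matrix.sub_apply, mul_single_apply', mul_single_apply']

theorem act1_eq (p q : I) (W : Matrix I I R) : N p q * W + W * (N p q)ᵀ = act1 p q W := by
  ext i j
  rw [Matrix.add_apply, N_mul, mul_Nt]
  rfl

theorem act2_eq (p q : I) (W : Matrix I I R) : N p q * W * (N p q)ᵀ = act2 p q W := by
  ext i j
  rw [mul_Nt, N_mul, N_mul]
  rfl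

end ring

end Cfsg.Agent.Lib.Helper6.D4
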