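import Mathlib
import Cfsg.Agent.Lib.Helper6.D4Ad

/-!
Kernel checks of the integer identities for the tables of `chevD4`.
-/

namespace Cfsg.Agent.Lib.Helper6.D4
open Matrix

theorem T0_eq (c : Idx) : (fun row => T0 row c) = (Pi.single c 1 : Idx → ℤ) := by
  funext row
  simp [T0, Pi.single_apply]

set_option maxRecDepth 100000 in
theorem idT1 : ∀ (r : Fin 24) (c : Idx), X (fun row => T1 r row c) =
    act1 (P r) (Qt r) (B c : Matrix _ _ ℤ) := by decide +kernel

set_option maxRecDepth 100000 in
theorem idT2 : ∀ (r : Fin 24) (c : Idx), X (fun row => T2 r row c) =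
    act2 (P r) (Qt r) (B c : Matrix _ _ ℤ) := by decide +kernel

end Cfsg.Agent.Lib.Helper6.D4
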