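import Mathlib
import Cfsg.Prelude.Def_Classical
import Cfsg.Agent.Lib.Helper6.D4Ad
import Cfsg.Agent.Lib.Helper6.IsomTransport

/-!
Root elements of the orthogonal group of `x₁y₁ + x₂y₂ + x₃y₃ + x₄y₄`.
-/

namespace Cfsg.Agent.Lib.Helper6.D4
open Matrix

variable {F : Type*} [Field F]

abbrev O8 (F : Type*) [Field F] := Cfsg.isometryGroup F (Cfsg.quadFormPlus 4 F)

/-- basis vectors -/
def e (p : I) : I → F := Pi.single p 1

theorem e_apply (p i : I) : (e p : I → F) i = if i = p then 1 else 0 := by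
  simp [e, Pi.single_apply]

theorem Q_add_single (v : I → F) (a : F) (p : I) :
    Cfsg.quadFormPlus 4 F (v + a • e p) = Cfsg.quadFormPlus 4 F v + a * v p.swap := by
  rcases p with k | k
  · simp [Cfsg.quadFormPlus, e_apply, add_mul, Finset.sum_add_distrib]
  · simp [Cfsg.quadFormPlus, e_apply, mul_add, Finset.sum_add_distrib, mul_comm]

theorem Q_zero : Cfsg.quadFormPlus 4 F (0 : I → F) = 0 := by
  simp [Cfsg.quadFormPlus]

theorem Q_two (a b : F) (p q : I) :
    Cfsg.quadFormPlus 4 F (a • e p + b • e q) = if q = p.swap then a * b else 0 := by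
  have h1 := Q_add_single (0 : I → F) a p
  rw [zero_add, Q_zero] at h1
  rw [Q_add_single, h1]
  have : (q.swap = p) ↔ (q = p.swap) := by
    constructor
    · rintro rfl; simp
    · rintro rfl; simp
  simp [e_apply, this]
  split_ifs <;> ring

/-- the matrix of a root element -/
def Rm (p q : I) (t : F) : Matrix I I F := 1 + t • N p q

theorem N_mulVec (p q : I) (v : I → F) :
    (N p q : Matrix I I F) *ᵥ v = v q.swap • e p - v p.swap • e q := by
  funext i
  simp [N, Matrix.sub_mulVec, Matrix.single_mulVec, e_apply, Function.update_apply]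

theorem Rm_mulVec (p q : I) (t : F) (v : I → F) :
    Rm p q t *ᵥ v = v + (t * v q.swap) • e p + (-(t * v p.swap)) • e q := by
  rw [Rm, Matrix.add_mulVec, Matrix.one_mulVec, Matrix.smul_mulVec, N_mulVec]
  module

theorem Rm_apply (p q : I) (t : F) (v : I → F) (i : I) :
    (Rm p q t *ᵥ v) i = v i + (if i = p then t * v q.swap else 0) -
      (if i = q then t * v p.swap else 0) := by
  rw [Rm_mulVec]
  simp [e_apply]
  ring

theorem swap_ne (p : I) : p.swap ≠ p := by
  rcases p with k | k <;> simp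

theorem Rm_pres (p q : I) (h : p ≠ q.swap) (t : F) (v : I → F) :
    Cfsg.quadFormPlus 4 F (Rm p q t *ᵥ v) = Cfsg.quadFormPlus 4 F v := by
  rw [Rm_mulVec, Q_add_single, Q_add_single]
  simp [e_apply, h.symm]
  ring

theorem Rm_mul_neg (p q : I) (h : p ≠ q.swap) (t : F) : Rm p q t * Rm p q (-t) = 1 := by
  rw [Matrix.ext_iff_mulVec]
  intro v
  have h' : q ≠ p.swap := by
    rintro rfl
    simp at h
  rw [← Matrix.mulVec_mulVec, Matrix.one_mulVec]
  funext i
  rw [Rm_apply, Rm_apply, Rm_apply, Rm_apply]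
  simp [h.symm, h'.symm, swap_ne]
  split_ifs <;> ring

/-- root elements of `O₈⁺(F)` -/
def Rg (p q : I) (h : p ≠ q.swap) (t : F) : O8 F :=
  ⟨⟨Rm p q t, Rm p q (-t), Rm_mul_neg p q h t, by
    have := Rm_mul_neg p q h (-t)
    rwa [neg_neg] at this⟩, by
    rw [mem_isometryGroup_iff]
    exact Rm_pres p q h t⟩

/-- the underlying matrix -/
def mat (g : O8 F) : Matrix I I F := ((g : Matrix.GeneralLinearGroup I F) : Matrix I I F)

theorem mat_mul (g h : O8 F) : mat (g * h) = mat g * mat h := rfl

theorem mat_one : mat (1 : O8 F) = 1 := rfl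

theorem mat_Rg (p q : I) (h : p ≠ q.swap) (t : F) : mat (Rg p q h t) = Rm p q t := rfl

theorem mat_injective : Function.Injective (mat : O8 F → Matrix I I F) := by
  intro g h e
  exact Subtype.ext (Units.ext e)

theorem mat_pres (g : O8 F) (v : I → F) :
    Cfsg.quadFormPlus 4 F (mat g *ᵥ v) = Cfsg.quadFormPlus 4 F v :=
  (mem_isometryGroup_iff _ _).1 g.2 v

/-- the subgroup generated by the root elements -/
def E (F : Type*) [Field F] : Subgroup (O8 F) :=
  Subgroup.closure {g | ∃ (p q : I) (h : p ≠ q.swap) (t : F), g = Rg p q h t}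

theorem Rg_mem (p q : I) (h : p ≠ q.swap) (t : F) : Rg p q h t ∈ E F :=
  Subgroup.subset_closure ⟨p, q, h, t, rfl⟩

/-- columns -/
def col (g : O8 F) (r : I) : I → F := mat g *ᵥ e r

theorem col_mul (g h : O8 F) (r : I) : col (g * h) r = mat g *ᵥ col h r := by
  rw [col, col, mat_mul, Matrix.mulVec_mulVec]

theorem Q_col (g : O8 F) (r : I) : Cfsg.quadFormPlus 4 F (col g r) = 0 := by
  rw [col, mat_pres]
  have := Q_two (F := F) 1 0 r r
  simpa [(swap_ne r).symm] using this

/-- pairing of a vector with the image of a basis vector -/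
theorem pair_col (g : O8 F) (v : I → F) (r : I) (a : F) (w : I → F) (hw : mat g *ᵥ v = w)
    (hr : col g r = a • e r) : a * w r.swap = v r.swap := by
  have h1 := mat_pres g (v + (1 : F) • e r)
  rw [Matrix.mulVec_add, Matrix.mulVec_smul, hw, Q_add_single, one_smul] at h1
  have h2 : mat g *ᵥ e r = a • e r := hr
  rw [h2, Q_add_single, ← hw, mat_pres, hw] at h1
  linear_combination h1

end Cfsg.Agent.Lib.Helper6.D4
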