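import Mathlib
import Cfsg.Agent.Lib.Helper6.D4Chk
import Cfsg.Agent.Lib.Helper6.O8a

/-!
The root elements of `O₈⁺(F)` act on alternating matrices by the matrices `x_r(t)` of `chevD4`.
-/

namespace Cfsg.Agent.Lib.Helper6.D4
open Matrix

variable {F : Type*} [Field F]

theorem cast_X (w : Idx → ℤ) :
    (Int.castRingHom F).mapMatrix (X w) = X (fun i => ((w i : ℤ) : F)) := by
  rw [RingHom.mapMatrix_apply, X_map]
  rfl

theorem cast_B (c : Idx) : (Int.castRingHom F).mapMatrix (B c) = B c := by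
  rw [RingHom.mapMatrix_apply, B_map]

theorem cast_N (p q : I) : (Int.castRingHom F).mapMatrix (N p q) = N p q := by
  rw [N, N, map_sub, RingHom.mapMatrix_apply, RingHom.mapMatrix_apply,
    Matrix.map_single, Matrix.map_single, map_one]

theorem cast_Nt (p q : I) : (Int.castRingHom F).mapMatrix (N p q)ᵀ = (N p q)ᵀ := by
  rw [RingHom.mapMatrix_apply, Matrix.transpose_map, ← RingHom.mapMatrix_apply, cast_N]

theorem X_xM_col (r : Fin 24) (t : F) (c : Idx) :
    X (fun row => xM F r t row c) =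
      Rm (P r) (Qt r) t * B c * (Rm (P r) (Qt r) t)ᵀ := by
  have e0 : X (fun row => ((T0 row c : ℤ) : F)) = B c := by
    have := congrArg (fun w => (Int.castRingHom F).mapMatrix (X w)) (T0_eq c)
    simp only [cast_X] at this
    rw [this]
    have h2 := cast_B (F := F) c
    rw [B, cast_X] at h2
    exact h2
  have e1 := congrArg (Int.castRingHom F).mapMatrix ((idT1 r c).trans (act1_eq _ _ _).symm)
  have e2 := congrArg (Int.castRingHom F).mapMatrix ((idT2 r c).trans (act2_eq _ _ _).symm)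
  rw [cast_X, map_add, map_mul, map_mul, cast_B, cast_N, cast_Nt] at e1
  rw [cast_X, map_mul, map_mul, cast_B, cast_N, cast_Nt] at e2
  have hx : (fun row => xM F r t row c) = (fun row => ((T0 row c : ℤ) : F)) +
      t • (fun row => ((T1 r row c : ℤ) : F)) + (t ^ 2) • (fun row => ((T2 r row c : ℤ) : F)) := by
    funext row
    rw [xM_apply]
    simp only [Pi.add_apply, Pi.smul_apply, smul_eq_mul]
    ring
  have hX : X (fun row => xM F r t row c) = X (fun row => ((T0 row c : ℤ) : F)) +
      t • X (fun row => ((T1 r row c : ℤ) : F)) + (t ^ 2) • X (fun row => ((T2 r row c : ℤ) : F)) := by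
    rw [hx]
    exact (map_add (Xl (R := F)) _ _).trans (by
      rw [map_add, map_smul, map_smul]
      rfl)
  rw [hX, e0, e1, e2, Rm, Matrix.transpose_add, Matrix.transpose_one, Matrix.transpose_smul]
  simp only [Matrix.add_mul, Matrix.mul_add, Matrix.one_mul, Matrix.mul_one, Matrix.smul_mul,
    Matrix.mul_smul]
  module

theorem X_xM (r : Fin 24) (t : F) (v : Idx → F) :
    X (xM F r t *ᵥ v) = Rm (P r) (Qt r) t * X v * (Rm (P r) (Qt r) t)ᵀ := by
  have : (Xl (R := F)) ∘ₗ Matrix.toLin' (xM F r t) =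
      LinearMap.mulLeft F (Rm (P r) (Qt r) t) ∘ₗ
        LinearMap.mulRight F (Rm (P r) (Qt r) t)ᵀ ∘ₗ Xl := by
    apply (Pi.basisFun F Idx).ext
    intro c
    have h1 : xM F r t *ᵥ Pi.single c 1 = fun row => xM F r t row c := by
      funext row
      simp
    rw [Pi.basisFun_apply]
    show X (xM F r t *ᵥ Pi.single c 1) =
      Rm (P r) (Qt r) t * (X (Pi.single c 1) * (Rm (P r) (Qt r) t)ᵀ)
    rw [h1, X_xM_col, Matrix.mul_assoc]
    rfl
  have h2 := LinearMap.congr_fun this v
  have h3 : X (xM F r t *ᵥ v) = Rm (P r) (Qt r) t * (X v * (Rm (P r) (Qt r) t)ᵀ) := h2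
  rw [h3, Matrix.mul_assoc]

end Cfsg.Agent.Lib.Helper6.D4
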