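import Mathlib
import Cfsg.Agent.Lib.Helper6.O8a

/-!
Elimination in `O₈⁺(F)` by root elements.
-/

namespace Cfsg.Agent.Lib.Helper6.D4
open Matrix

variable {F : Type*} [Field F]

/-- the column `r` of `g` is a multiple of the basis vector `e r` -/
def Dg (g : O8 F) (r : I) : Prop := ∃ a : F, col g r = a • e r

theorem coef_ne_zero (g : O8 F) (r : I) (a : F) (hr : col g r = a • e r) : a ≠ 0 := by
  have h := pair_col g (e r.swap) r a (col g r.swap) rfl hr
  rw [e_apply, if_pos rfl] at h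
  exact left_ne_zero_of_mul_eq_one h

theorem zero_coord (g : O8 F) (r c : I) (hr : Dg g r) (hc : c ≠ r.swap) :
    col g c r.swap = 0 := by
  obtain ⟨a, ha⟩ := hr
  have h := pair_col g (e c) r a (col g c) rfl ha
  rw [e_apply, if_neg hc.symm] at h
  exact (mul_eq_zero.1 h).resolve_left (coef_ne_zero g r a ha)

theorem col_ne_zero (g : O8 F) (c : I) : col g c ≠ 0 := by
  intro h
  have h1 : mat (g⁻¹ * g) *ᵥ (e c : I → F) = 0 := by
    rw [mat_mul, ← Matrix.mulVec_mulVec]
    show mat g⁻¹ *ᵥ col g c = 0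
    rw [h, Matrix.mulVec_zero]
  rw [inv_mul_cancel, mat_one, Matrix.one_mulVec] at h1
  have := congrFun h1 c
  simp [e_apply] at this

theorem Rm_fix (p q r : I) (t : F) (h1 : r ≠ q.swap) (h2 : r ≠ p.swap) :
    Rm p q t *ᵥ (e r : I → F) = e r := by
  rw [Rm_mulVec, e_apply, e_apply, if_neg h1.symm, if_neg h2.symm]
  simp

theorem Dg_of_fix (h g : O8 F) (r : I) (hr : Dg g r) (hf : mat h *ᵥ (e r : I → F) = e r) :
    Dg (h * g) r := by
  obtain ⟨a, ha⟩ := hr
  exact ⟨a, by rw [col_mul, ha, Matrix.mulVec_smul, hf]⟩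

theorem clear (c : I) (S : Finset I) (hS : ∀ j ∈ S, j ≠ c ∧ j ≠ c.swap) (w : I → F)
    (hw : w c ≠ 0) :
    ∃ h : O8 F, h ∈ E F ∧ (∀ r, r ≠ c → r.swap ∉ S → mat h *ᵥ (e r : I → F) = e r) ∧
      (mat h *ᵥ w) c = w c ∧ (∀ j ∈ S, (mat h *ᵥ w) j = 0) ∧
      (∀ j, j ∉ S → j ≠ c.swap → (mat h *ᵥ w) j = w j) := by
  induction S using Finset.induction_on with
  | empty =>
    refine ⟨1, one_mem _, ?_, ?_, ?_, ?_⟩
    · intro r _ _
      rw [mat_one, Matrix.one_mulVec]
    · rw [mat_one, Matrix.one_mulVec]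
    · intro j hj
      simp at hj
    · intro j _ _
      rw [mat_one, Matrix.one_mulVec]
  | insert j S hjS ih =>
    obtain ⟨h1, hE, hfix, hc, hz, hk⟩ := ih (fun i hi => hS i (Finset.mem_insert_of_mem hi))
    obtain ⟨hjc, hjc'⟩ := hS j (Finset.mem_insert_self _ _)
    have hh : j ≠ c.swap.swap := by simpa using hjc
    set w1 := mat h1 *ᵥ w with hw1
    refine ⟨Rg j c.swap hh (-(w1 j) / w c) * h1, mul_mem (Rg_mem _ _ _ _) hE, ?_, ?_, ?_, ?_⟩
    · intro r hr hrS
      rw [Finset.mem_insert, not_or] at hrS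
      rw [mat_mul, ← Matrix.mulVec_mulVec, hfix r hr hrS.2, mat_Rg, Rm_fix]
      · simpa using hr
      · intro h
        apply hrS.1
        rw [h]
        simp
    · rw [mat_mul, ← Matrix.mulVec_mulVec, mat_Rg, Rm_apply, if_neg hjc.symm,
        if_neg (swap_ne c).symm, ← hw1, hc]
      simp
    · intro i hi
      rw [mat_mul, ← Matrix.mulVec_mulVec, mat_Rg, Rm_apply, ← hw1]
      rw [Finset.mem_insert] at hi
      rcases hi with rfl | hi
      · rw [if_pos rfl, if_neg hjc', Sum.swap_swap, hc]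
        field_simp
        ring
      · have hij : i ≠ j := fun h => hjS (h ▸ hi)
        rw [if_neg hij, if_neg (hS i (Finset.mem_insert_of_mem hi)).2, hz i hi]
        simp
    · intro i hi hic
      rw [Finset.mem_insert, not_or] at hi
      rw [mat_mul, ← Matrix.mulVec_mulVec, mat_Rg, Rm_apply, ← hw1, if_neg hi.1, if_neg hic,
        hk i hi.2 hic]
      simp

theorem diag_col (D : I → Prop) (c : I) (hcD : ¬ D c) (g : O8 F) (hD : ∀ r, D r → Dg g r)
    (hc : col g c c ≠ 0) : ∃ h ∈ E F, (∀ r, D r → Dg (h * g) r) ∧ Dg (h * g) c := by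
  classical
  set S : Finset I := Finset.univ.filter (fun j => j ≠ c ∧ j ≠ c.swap ∧ ¬ D j.swap) with hS
  have hmem : ∀ j, j ∈ S ↔ (j ≠ c ∧ j ≠ c.swap ∧ ¬ D j.swap) := by
    intro j
    simp [hS]
  obtain ⟨h, hE, hfix, hcc, hz, hk⟩ := clear c S (fun j hj => ⟨((hmem j).1 hj).1, ((hmem j).1 hj).2.1⟩)
    (col g c) hc
  refine ⟨h, hE, ?_, ?_⟩
  · intro r hr
    apply Dg_of_fix _ _ _ (hD r hr)
    apply hfix
    · rintro rfl
      exact hcD hr
    · intro h1
      have := ((hmem _).1 h1).2.2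
      rw [Sum.swap_swap] at this
      exact this hr
  · set w' := mat h *ᵥ col g c with hw'
    have hother : ∀ i, i ≠ c → i ≠ c.swap → w' i = 0 := by
      intro i hi1 hi2
      by_cases hiS : i ∈ S
      · exact hz i hiS
      · rw [hk i hiS hi2]
        have hDi : D i.swap := by
          by_contra hcon
          exact hiS ((hmem i).2 ⟨hi1, hi2, hcon⟩)
        have := zero_coord g i.swap c (hD _ hDi) (by simpa using hi1.symm)
        simpa using this
    have hform : w' = w' c • e c + w' c.swap • e c.swap := by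
      funext i
      simp only [Pi.add_apply, Pi.smul_apply, e_apply, smul_eq_mul]
      by_cases h1 : i = c
      · subst h1
        simp [(swap_ne i).symm]
      · by_cases h2 : i = c.swap
        · subst h2
          simp [swap_ne]
        · simp [h1, h2, hother i h1 h2]
    have hQ : Cfsg.quadFormPlus 4 F w' = 0 := by
      rw [hw', mat_pres, Q_col]
    rw [hform, Q_two, if_pos rfl] at hQ
    have hc' : w' c.swap = 0 := by
      refine (mul_eq_zero.1 hQ).resolve_left ?_
      rw [hcc]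
      exact hc
    refine ⟨w' c, ?_⟩
    rw [col_mul, ← hw']
    conv_lhs => rw [hform, hc']
    simp

theorem make_ne (D : I → Prop) (c j : I) (hj1 : j ≠ c) (hj2 : j ≠ c.swap) (hDc : ¬ D c.swap)
    (hDj : ¬ D j) (g : O8 F) (hD : ∀ r, D r → Dg g r) (hj : col g c j ≠ 0) :
    ∃ h ∈ E F, (∀ r, D r → Dg (h * g) r) ∧ col (h * g) c c ≠ 0 := by
  by_cases h0 : col g c c = 0
  · have hh : c ≠ j.swap.swap := by simpa using hj1.symm
    refine ⟨Rg c j.swap hh 1, Rg_mem _ _ _ _, ?_, ?_⟩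
    · intro r hr
      apply Dg_of_fix _ _ _ (hD r hr)
      rw [mat_Rg]
      apply Rm_fix
      · rw [Sum.swap_swap]
        rintro rfl
        exact hDj hr
      · rintro rfl
        exact hDc hr
    · rw [col_mul, mat_Rg, Rm_apply, if_pos rfl, Sum.swap_swap, h0]
      have : c ≠ j.swap := by
        rintro rfl
        simp at hj2
      rw [if_neg this]
      simpa using hj
  · exact ⟨1, one_mem _, by simpa using hD, by simpa using h0⟩

theorem make_ne' (D : I → Prop) (c d : I) (hd1 : d ≠ c) (hd2 : d ≠ c.swap)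
    (hDc' : ¬ D c.swap) (hDd : ¬ D d) (hDd' : ¬ D d.swap) (hsw : ∀ r, D r → D r.swap)
    (g : O8 F) (hD : ∀ r, D r → Dg g r) :
    ∃ h ∈ E F, (∀ r, D r → Dg (h * g) r) ∧ col (h * g) c c ≠ 0 := by
  by_cases h0 : ∃ j, j ≠ c ∧ j ≠ c.swap ∧ col g c j ≠ 0
  · obtain ⟨j, hj1, hj2, hj⟩ := h0
    refine make_ne D c j hj1 hj2 hDc' ?_ g hD hj
    intro hDj
    have := zero_coord g j.swap c (hD _ (hsw j hDj)) (by simpa using hj1.symm)
    rw [Sum.swap_swap] at this
    exact hj this
  · push Not at h0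
    by_cases hc0 : col g c c = 0
    · have hc' : col g c c.swap ≠ 0 := by
        intro hc'
        apply col_ne_zero g c
        funext i
        by_cases h1 : i = c
        · rw [h1, hc0]; rfl
        · by_cases h2 : i = c.swap
          · rw [h2, hc']; rfl
          · exact h0 i h1 h2
      have hD1 : ∀ r, D r → Dg (Rg d c hd2 1 * g) r := by
        intro r hr
        apply Dg_of_fix _ _ _ (hD r hr)
        rw [mat_Rg]
        apply Rm_fix
        · rintro rfl
          exact hDc' hr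
        · rintro rfl
          exact hDd' hr
      have hd : col (Rg d c hd2 1 * g) c d ≠ 0 := by
        rw [col_mul, mat_Rg, Rm_apply, if_pos rfl, if_neg hd1, h0 d hd1 hd2]
        simpa using hc'
      obtain ⟨h, hE, h3, h4⟩ := make_ne D c d hd1 hd2 hDc' hDd _ hD1 hd
      refine ⟨h * Rg d c hd2 1, mul_mem hE (Rg_mem _ _ _ _), ?_, ?_⟩
      · intro r hr
        rw [mul_assoc]
        exact h3 r hr
      · rw [mul_assoc]
        exact h4
    · exact ⟨1, one_mem _, by simpa using hD, by simpa using hc0⟩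

theorem pair_step (D : I → Prop) (c d : I) (hd1 : d ≠ c) (hd2 : d ≠ c.swap) (hDc : ¬ D c)
    (hDc' : ¬ D c.swap) (hDd : ¬ D d) (hDd' : ¬ D d.swap) (hsw : ∀ r, D r → D r.swap)
    (g : O8 F) (hD : ∀ r, D r → Dg g r) :
    ∃ h ∈ E F, ∀ r, (D r ∨ r = c ∨ r = c.swap) → Dg (h * g) r := by
  obtain ⟨h1, hE1, hD1, hc1⟩ := make_ne' D c d hd1 hd2 hDc' hDd hDd' hsw g hD
  obtain ⟨h2, hE2, hD2, hc2⟩ := diag_col D c hDc _ hD1 hc1
  have hD2' : ∀ r, (D r ∨ r = c) → Dg (h2 * (h1 * g)) r := by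
    rintro r (hr | rfl)
    · exact hD2 r hr
    · exact hc2
  have hne : col (h2 * (h1 * g)) c.swap c.swap ≠ 0 := by
    obtain ⟨a, ha⟩ := hc2
    have h := pair_col _ (e c.swap) c a (col (h2 * (h1 * g)) c.swap) rfl ha
    rw [e_apply, if_pos rfl] at h
    exact right_ne_zero_of_mul_eq_one h
  obtain ⟨h3, hE3, hD3, hc3⟩ := diag_col (fun r => D r ∨ r = c) c.swap
    (by
      rintro (h | h)
      · exact hDc' h
      · exact swap_ne c h) _ hD2' hne
  refine ⟨h3 * h2 * h1, mul_mem (mul_mem hE3 hE2) hE1, ?_⟩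
  have e1 : h3 * h2 * h1 * g = h3 * (h2 * (h1 * g)) := by group
  rw [e1]
  rintro r (hr | rfl | rfl)
  · exact hD3 r (Or.inl hr)
  · exact hD3 r (Or.inr rfl)
  · exact hc3

theorem reduce_three (g : O8 F) :
    ∃ h ∈ E F, ∀ r : I, r ≠ .inl 3 → r ≠ .inr 3 → Dg (h * g) r := by
  obtain ⟨h1, hE1, hD1⟩ := pair_step (fun _ => False) (.inl 0) (.inl 3) (by decide) (by decide)
    (by simp) (by simp) (by simp) (by simp) (by simp) g (by simp)
  obtain ⟨h2, hE2, hD2⟩ := pair_step (fun r => False ∨ r = .inl 0 ∨ r = (Sum.inl 0 : I).swap)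
    (.inl 1) (.inl 3) (by decide) (by decide)
    (by decide) (by decide) (by decide) (by decide) (by decide) _ hD1
  obtain ⟨h3, hE3, hD3⟩ := pair_step (fun r => (False ∨ r = .inl 0 ∨ r = (Sum.inl 0 : I).swap) ∨
      r = .inl 1 ∨ r = (Sum.inl 1 : I).swap)
    (.inl 2) (.inl 3) (by decide) (by decide)
    (by decide) (by decide) (by decide) (by decide) (by decide) _ hD2
  refine ⟨h3 * h2 * h1, mul_mem (mul_mem hE3 hE2) hE1, ?_⟩
  have e1 : h3 * h2 * h1 * g = h3 * (h2 * (h1 * g)) := by group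
  rw [e1]
  intro r hr1 hr2
  apply hD3
  revert r
  decide

end Cfsg.Agent.Lib.Helper6.D4
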