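import Mathlib
import Cfsg.Agent.Lib.Helper6.O8b

/-!
Every element of `O₈⁺(F)` is, modulo the root elements, diagonal or diagonal times a fixed reflection.
-/

namespace Cfsg.Agent.Lib.Helper6.D4
open Matrix

variable {F : Type*} [Field F]

theorem ext_col {A B : Matrix I I F} (h : ∀ r, A *ᵥ (e r : I → F) = B *ᵥ e r) : A = B := by
  ext i j
  simpa [e] using congrFun (h j) i

theorem pair_diag (D : I → Prop) (c : I) (hDc : ¬ D c) (hDc' : ¬ D c.swap)
    (g : O8 F) (hD1 : ∀ r, D r → Dg g r) (hc1 : col g c c ≠ 0) :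
    ∃ h ∈ E F, ∀ r, (D r ∨ r = c ∨ r = c.swap) → Dg (h * g) r := by
  obtain ⟨h2, hE2, hD2, hc2⟩ := diag_col D c hDc _ hD1 hc1
  have hD2' : ∀ r, (D r ∨ r = c) → Dg (h2 * g) r := by
    rintro r (hr | rfl)
    · exact hD2 r hr
    · exact hc2
  have hne : col (h2 * g) c.swap c.swap ≠ 0 := by
    obtain ⟨a, ha⟩ := hc2
    have h := pair_col _ (e c.swap) c a (col (h2 * g) c.swap) rfl ha
    rw [e_apply, if_pos rfl] at h
    exact right_ne_zero_of_mul_eq_one h
  obtain ⟨h3, hE3, hD3, hc3⟩ := diag_col (fun r => D r ∨ r = c) c.swap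
    (by
      rintro (h | h)
      · exact hDc' h
      · exact swap_ne c h) _ hD2' hne
  refine ⟨h3 * h2, mul_mem hE3 hE2, ?_⟩
  rw [mul_assoc]
  rintro r (hr | rfl | rfl)
  · exact hD3 r (Or.inl hr)
  · exact hD3 r (Or.inr rfl)
  · exact hc3

/-- the transposition of the last hyperbolic pair -/
def sig : I → I := Equiv.swap (.inl 3) (.inr 3)

theorem sig_sig : ∀ i, sig (sig i) = i := by decide

theorem sig_swap : ∀ i : I, sig i.swap = (sig i).swap := by decide

def Sm : Matrix I I F := fun i j => if j = sig i then 1 else 0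

theorem Sm_mulVec (v : I → F) : Sm *ᵥ v = fun i => v (sig i) := by
  funext i
  simp [Sm, Matrix.mulVec, dotProduct]

theorem Sm_e (r : I) : Sm *ᵥ (e r : I → F) = e (sig r) := by
  rw [Sm_mulVec]
  funext i
  rw [e_apply, e_apply]
  have : sig i = r ↔ i = sig r := by
    constructor
    · rintro rfl; rw [sig_sig]
    · rintro rfl; rw [sig_sig]
  simp [this]

theorem Sm_sq : (Sm * Sm : Matrix I I F) = 1 := by
  rw [Matrix.ext_iff_mulVec]
  intro v
  rw [← Matrix.mulVec_mulVec, Sm_mulVec, Sm_mulVec, Matrix.one_mulVec]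
  funext i
  show v (sig (sig i)) = v i
  rw [sig_sig]

theorem Sm_pres (v : I → F) :
    Cfsg.quadFormPlus 4 F (Sm *ᵥ v) = Cfsg.quadFormPlus 4 F v := by
  rw [Sm_mulVec]
  have h0 : sig (.inl 0) = .inl 0 := by decide
  have h1 : sig (.inl 1) = .inl 1 := by decide
  have h2 : sig (.inl 2) = .inl 2 := by decide
  have h3 : sig (.inl 3) = .inr 3 := by decide
  have k0 : sig (.inr 0) = .inr 0 := by decide
  have k1 : sig (.inr 1) = .inr 1 := by decide
  have k2 : sig (.inr 2) = .inr 2 := by decide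
  have k3 : sig (.inr 3) = .inl 3 := by decide
  simp only [Cfsg.quadFormPlus, Fin.sum_univ_four, h0, h1, h2, h3, k0, k1, k2, k3]
  ring

/-- the reflection interchanging the last hyperbolic pair -/
def sg : O8 F :=
  ⟨⟨Sm, Sm, Sm_sq, Sm_sq⟩, by
    rw [mem_isometryGroup_iff]
    exact Sm_pres⟩

theorem mat_sg : mat (sg : O8 F) = Sm := rfl

theorem sg_mul_sg : (sg * sg : O8 F) = 1 := by
  apply mat_injective
  rw [mat_mul, mat_sg, Sm_sq, mat_one]

theorem sg_inv : (sg : O8 F)⁻¹ = sg := inv_eq_of_mul_eq_one_left sg_mul_sg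

def AllD (g : O8 F) : Prop := ∀ r, Dg g r

theorem reduce_all (g : O8 F) :
    ∃ h1 ∈ E F, AllD (h1 * g) ∨ ∃ h2 ∈ E F, AllD (h2 * (sg * (h1 * g))) := by
  obtain ⟨h, hE, hD⟩ := reduce_three g
  have hcov : ∀ r : I, (r ≠ .inl 3 ∧ r ≠ .inr 3) ∨ r = .inl 3 ∨ r = (Sum.inl 3 : I).swap := by
    decide
  by_cases ha : col (h * g) (.inl 3) (.inl 3) = 0
  · refine ⟨h, hE, Or.inr ?_⟩
    have hb : col (h * g) (.inl 3) (.inr 3) ≠ 0 := by
      intro hb
      apply col_ne_zero (h * g) (.inl 3)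
      funext i
      by_cases h1 : i = .inl 3
      · rw [h1, ha]; rfl
      · by_cases h2 : i = .inr 3
        · rw [h2, hb]; rfl
        · have h3 : i.swap ≠ .inl 3 := by
            intro h4
            apply h2
            rw [← Sum.swap_swap i, h4]
            rfl
          have h4 : i.swap ≠ .inr 3 := by
            intro h4
            apply h1
            rw [← Sum.swap_swap i, h4]
            rfl
          have := zero_coord (h * g) i.swap (.inl 3) (hD _ h3 h4) (by simpa using (Ne.symm h1))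
          simpa using this
    obtain ⟨h2, hE2, hD2⟩ := pair_diag (fun r => r ≠ .inl 3 ∧ r ≠ .inr 3) (.inl 3) (by simp)
      (by simp) (sg * (h * g)) (by
        rintro r ⟨hr1, hr2⟩
        apply Dg_of_fix _ _ _ (hD r hr1 hr2)
        rw [mat_sg, Sm_e]
        congr 1
        revert r
        decide) (by
        rw [col_mul, mat_sg, Sm_mulVec]
        exact hb)
    exact ⟨h2, hE2, fun r => hD2 r (hcov r)⟩
  · obtain ⟨h2, hE2, hD2⟩ := pair_diag (fun r => r ≠ .inl 3 ∧ r ≠ .inr 3) (.inl 3) (by simp)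
      (by simp) (h * g) (fun r hr => hD r hr.1 hr.2) ha
    refine ⟨h2 * h, mul_mem hE2 hE, Or.inl ?_⟩
    rw [mul_assoc]
    exact fun r => hD2 r (hcov r)

end Cfsg.Agent.Lib.Helper6.D4
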