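import Mathlib
import Cfsg.Agent.Lib.Helper6.O8c

/-!
The subgroup of `O₈⁺(F)` generated by the root elements contains the commutator subgroup.
-/

namespace Cfsg.Agent.Lib.Helper6.D4
open Matrix

variable {F : Type*} [Field F]

theorem AllD_coef (t : O8 F) (ht : AllD t) :
    ∃ a : I → F, (∀ r, mat t *ᵥ (e r : I → F) = a r • e r) ∧ (∀ r, a r * a r.swap = 1) := by
  choose a ha using ht
  refine ⟨a, ha, fun r => ?_⟩
  have h := pair_col t (e r.swap) r (a r) (col t r.swap) rfl (ha r)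
  rw [ha r.swap, e_apply, if_pos rfl] at h
  simpa [e_apply] using h

theorem AllD_conj (t : O8 F) (ht : AllD t) (p q : I) (h : p ≠ q.swap) (u : F) :
    ∃ u', t * Rg p q h u = Rg p q h u' * t := by
  obtain ⟨a, ha, haa⟩ := AllD_coef t ht
  refine ⟨u * a p * a q, ?_⟩
  apply mat_injective
  apply ext_col
  intro r
  rw [mat_mul, mat_mul, ← Matrix.mulVec_mulVec, ← Matrix.mulVec_mulVec, mat_Rg, mat_Rg, ha,
    Matrix.mulVec_smul, Rm_mulVec, Rm_mulVec]
  simp only [Matrix.mulVec_add, Matrix.mulVec_smul, ha, smul_add, smul_smul]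
  have e1 : u * (e r : I → F) q.swap * a p = a r * (u * a p * a q * (e r : I → F) q.swap) := by
    rw [e_apply]
    split_ifs with h1
    · subst h1
      linear_combination (- u * a p) * haa q
    · ring
  have e2 : -(u * (e r : I → F) p.swap) * a q =
      a r * -(u * a p * a q * (e r : I → F) p.swap) := by
    rw [e_apply]
    split_ifs with h1
    · subst h1
      linear_combination (u * a q) * haa p
    · ring
  rw [e1, e2]

theorem sig_inj {i j : I} (h : sig i = sig j) : i = j := by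
  rw [← sig_sig i, h, sig_sig]

theorem sg_conj (p q : I) (h : p ≠ q.swap) (u : F) :
    ∃ h' : sig p ≠ (sig q).swap, sg * Rg p q h u = Rg (sig p) (sig q) h' u * sg := by
  have h' : sig p ≠ (sig q).swap := by
    rw [← sig_swap]
    exact fun h1 => h (sig_inj h1)
  refine ⟨h', ?_⟩
  apply mat_injective
  apply ext_col
  intro r
  rw [mat_mul, mat_mul, ← Matrix.mulVec_mulVec, ← Matrix.mulVec_mulVec, mat_Rg, mat_Rg, mat_sg,
    Sm_e, Rm_mulVec, Rm_mulVec]
  simp only [Matrix.mulVec_add, Matrix.mulVec_smul, Sm_e]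
  have e1 : ∀ x : I, (e (sig r) : I → F) (sig x).swap = (e r : I → F) x.swap := by
    intro x
    rw [e_apply, e_apply, ← sig_swap]
    by_cases h1 : x.swap = r
    · rw [if_pos h1, if_pos (by rw [h1])]
    · rw [if_neg h1, if_neg (fun h2 => h1 (sig_inj h2))]
  rw [e1, e1]

theorem conj_E (x : O8 F) (hx : ∀ p q h u, x * Rg p q h u * x⁻¹ ∈ E F) :
    ∀ y ∈ E F, x * y * x⁻¹ ∈ E F := by
  intro y hy
  induction hy using Subgroup.closure_induction with
  | mem y hy =>
    obtain ⟨p, q, h, u, rfl⟩ := hy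
    exact hx p q h u
  | one => simp [one_mem]
  | mul a b _ _ ha hb =>
    have : x * (a * b) * x⁻¹ = (x * a * x⁻¹) * (x * b * x⁻¹) := by group
    rw [this]
    exact mul_mem ha hb
  | inv a _ ha =>
    have : x * a⁻¹ * x⁻¹ = (x * a * x⁻¹)⁻¹ := by group
    rw [this]
    exact inv_mem ha

theorem AllD_conj_E (t : O8 F) (ht : AllD t) : ∀ y ∈ E F, t * y * t⁻¹ ∈ E F := by
  apply conj_E
  intro p q h u
  obtain ⟨u', hu'⟩ := AllD_conj t ht p q h u
  rw [hu', mul_inv_cancel_right]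
  exact Rg_mem _ _ _ _

theorem sg_conj_E : ∀ y ∈ E F, sg * y * sg⁻¹ ∈ E F := by
  apply conj_E
  intro p q h u
  obtain ⟨h', hu'⟩ := sg_conj p q h u
  rw [hu', mul_inv_cancel_right]
  exact Rg_mem _ _ _ _

theorem E_normal : (E F).Normal := by
  constructor
  intro n hn g
  obtain ⟨h1, hE1, hcase⟩ := reduce_all g
  rcases hcase with ht | ⟨h2, hE2, ht⟩
  · have h3 := AllD_conj_E _ ht n hn
    have : g * n * g⁻¹ = h1⁻¹ * ((h1 * g) * n * (h1 * g)⁻¹) * h1 := by group
    rw [this]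
    exact mul_mem (mul_mem (inv_mem hE1) h3) hE1
  · have h3 := AllD_conj_E _ ht n hn
    have h4 : (sg * (h1 * g)) * n * (sg * (h1 * g))⁻¹ ∈ E F := by
      have : (sg * (h1 * g)) * n * (sg * (h1 * g))⁻¹ =
          h2⁻¹ * ((h2 * (sg * (h1 * g))) * n * (h2 * (sg * (h1 * g)))⁻¹) * h2 := by group
      rw [this]
      exact mul_mem (mul_mem (inv_mem hE2) h3) hE2
    have h5 := sg_conj_E _ h4
    have h6 : (h1 * g) * n * (h1 * g)⁻¹ ∈ E F := by
      have : (h1 * g) * n * (h1 * g)⁻¹ =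
          (sg * sg) * ((h1 * g) * n * (h1 * g)⁻¹) * (sg * sg)⁻¹ := by
        rw [sg_mul_sg]
        simp
      rw [this]
      have e2 : (sg * sg) * ((h1 * g) * n * (h1 * g)⁻¹) * (sg * sg : O8 F)⁻¹ =
          sg * ((sg * (h1 * g)) * n * (sg * (h1 * g))⁻¹) * sg⁻¹ := by group
      rw [e2]
      exact h5
    have : g * n * g⁻¹ = h1⁻¹ * ((h1 * g) * n * (h1 * g)⁻¹) * h1 := by group
    rw [this]
    exact mul_mem (mul_mem (inv_mem hE1) h6) hE1

/-- a torus element in `E` -/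
def hh (u : F) : O8 F :=
  Rg (.inr 2) (.inr 3) (by decide) (u⁻¹ - 1) * Rg (.inl 3) (.inl 2) (by decide) 1 *
    Rg (.inr 2) (.inr 3) (by decide) (u - 1) * Rg (.inl 3) (.inl 2) (by decide) (-u⁻¹)

def dd (u : F) : I → F := Sum.elim ![1, 1, u, u] ![1, 1, u⁻¹, u⁻¹]

theorem hh_mem (u : F) : hh u ∈ E F :=
  mul_mem (mul_mem (mul_mem (Rg_mem _ _ _ _) (Rg_mem _ _ _ _)) (Rg_mem _ _ _ _)) (Rg_mem _ _ _ _)

theorem hh_mulVec (u : F) (hu : u ≠ 0) (v : I → F) : mat (hh u) *ᵥ v = fun i => dd u i * v i := by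
  funext i
  simp only [hh, mat_mul, ← Matrix.mulVec_mulVec, mat_Rg, Rm_apply]
  rcases i with i | i <;> fin_cases i <;> simp [dd] <;> field_simp <;> ring

end Cfsg.Agent.Lib.Helper6.D4
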