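import Mathlib
import Cfsg.Agent.Lib.Helper6.O8d

/-!
The subgroup of `O₈⁺(F)` generated by the root elements is the commutator subgroup.
-/

namespace Cfsg.Agent.Lib.Helper6.D4
open Matrix

variable {F : Type*} [Field F]

theorem AllD_comm (t t' : O8 F) (ht : AllD t) (ht' : AllD t') : t * t' = t' * t := by
  obtain ⟨a, ha, -⟩ := AllD_coef t ht
  obtain ⟨b, hb, -⟩ := AllD_coef t' ht'
  apply mat_injective
  apply ext_col
  intro r
  rw [mat_mul, mat_mul, ← Matrix.mulVec_mulVec, ← Matrix.mulVec_mulVec, ha, hb,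
    Matrix.mulVec_smul, Matrix.mulVec_smul, ha, hb, smul_smul, smul_smul, mul_comm]

/-- diagonal elements acting trivially on the last hyperbolic pair -/
def IsT1 (t : O8 F) : Prop :=
  AllD t ∧ mat t *ᵥ (e (.inl 3) : I → F) = e (.inl 3) ∧ mat t *ᵥ (e (.inr 3) : I → F) = e (.inr 3)

theorem sig_fix : ∀ r : I, r ≠ .inl 3 → r ≠ .inr 3 → sig r = r := by decide

theorem T1_comm_sg (t : O8 F) (ht : IsT1 t) : sg * t = t * sg := by
  obtain ⟨hD, h1, h2⟩ := ht
  obtain ⟨a, ha, -⟩ := AllD_coef t hD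
  apply mat_injective
  apply ext_col
  intro r
  rw [mat_mul, mat_mul, ← Matrix.mulVec_mulVec, ← Matrix.mulVec_mulVec, mat_sg, Sm_e]
  by_cases hr1 : r = .inl 3
  · subst hr1
    rw [h1, Sm_e]
    exact h2.symm
  · by_cases hr2 : r = .inr 3
    · subst hr2
      rw [h2, Sm_e]
      exact h1.symm
    · rw [sig_fix r hr1 hr2, ha, Matrix.mulVec_smul, Sm_e, sig_fix r hr1 hr2]

theorem exists_T1 (t : O8 F) (ht : AllD t) : ∃ t' h : O8 F, IsT1 t' ∧ h ∈ E F ∧ t = t' * h := by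
  obtain ⟨a, ha, haa⟩ := AllD_coef t ht
  have hu : a (.inl 3) ≠ 0 := left_ne_zero_of_mul_eq_one (haa _)
  have hcol : ∀ r, mat (t * hh (a (.inl 3))⁻¹) *ᵥ (e r : I → F) =
      (dd (a (.inl 3))⁻¹ r * a r) • e r := by
    intro r
    rw [mat_mul, ← Matrix.mulVec_mulVec, hh_mulVec _ (inv_ne_zero hu)]
    have : (fun i => dd (a (.inl 3))⁻¹ i * (e r : I → F) i) = dd (a (.inl 3))⁻¹ r • e r := by
      funext i
      simp only [e_apply, Pi.smul_apply, smul_eq_mul]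
      split_ifs with h
      · rw [h]
      · simp
    rw [this, Matrix.mulVec_smul, ha, smul_smul]
  refine ⟨t * hh (a (.inl 3))⁻¹, (hh (a (.inl 3))⁻¹)⁻¹, ⟨fun r => ⟨_, hcol r⟩, ?_, ?_⟩,
    inv_mem (hh_mem _), by group⟩
  · rw [hcol]
    have : dd (a (.inl 3))⁻¹ (.inl 3) * a (.inl 3) = 1 := by
      simp [dd, hu]
    rw [this, one_smul]
  · rw [hcol]
    have : dd (a (.inl 3))⁻¹ (.inr 3) * a (.inr 3) = 1 := by
      simpa [dd] using haa (.inl 3)
    rw [this, one_smul]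

theorem commutator_le_E : commutator (O8 F) ≤ E F := by
  have := E_normal (F := F)
  -- every class is `mk t'` or `mk sg * mk t'`
  have hrep : ∀ g : O8 F, ∃ t' : O8 F, IsT1 t' ∧
      ((g : O8 F ⧸ E F) = (t' : O8 F ⧸ E F) ∨
        (g : O8 F ⧸ E F) = ((sg : O8 F) : O8 F ⧸ E F) * (t' : O8 F ⧸ E F)) := by
    intro g
    have hone : ∀ h ∈ E F, ((h : O8 F) : O8 F ⧸ E F) = 1 :=
      fun h hh => (QuotientGroup.eq_one_iff h).2 hh
    obtain ⟨h1, hE1, hcase⟩ := reduce_all g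
    rcases hcase with ht | ⟨h2, hE2, ht⟩
    · obtain ⟨t', h, hT, hE, e1⟩ := exists_T1 _ ht
      refine ⟨t', hT, Or.inl ?_⟩
      have e2 := congrArg (fun x : O8 F => (x : O8 F ⧸ E F)) e1
      simp only [QuotientGroup.mk_mul, hone h1 hE1, hone h hE, one_mul, mul_one] at e2
      exact e2
    · obtain ⟨t', h, hT, hE, e1⟩ := exists_T1 _ ht
      refine ⟨t', hT, Or.inr ?_⟩
      have e2 := congrArg (fun x : O8 F => (x : O8 F ⧸ E F)) e1
      simp only [QuotientGroup.mk_mul, hone h1 hE1, hone h2 hE2, hone h hE, one_mul, mul_one] at e2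
      have e3 : ((sg : O8 F) : O8 F ⧸ E F) * ((sg : O8 F) : O8 F ⧸ E F) = 1 := by
        rw [← QuotientGroup.mk_mul, sg_mul_sg]
        rfl
      rw [← e2, ← mul_assoc, e3, one_mul]
  rw [commutator_def, Subgroup.commutator_le]
  intro a _ b _
  rw [← QuotientGroup.eq_one_iff]
  have e' := map_commutatorElement (QuotientGroup.mk' (E F)) a b
  simp only [QuotientGroup.mk'_apply] at e'
  rw [e', commutatorElement_eq_one_iff_mul_comm]
  obtain ⟨t1, hT1, h1⟩ := hrep a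
  obtain ⟨t2, hT2, h2⟩ := hrep b
  have c12 : Commute (t1 : O8 F ⧸ E F) (t2 : O8 F ⧸ E F) := by
    show (t1 : O8 F ⧸ E F) * (t2 : O8 F ⧸ E F) = (t2 : O8 F ⧸ E F) * (t1 : O8 F ⧸ E F)
    rw [← QuotientGroup.mk_mul, ← QuotientGroup.mk_mul, AllD_comm t1 t2 hT1.1 hT2.1]
  have cs : ∀ t : O8 F, IsT1 t → Commute ((sg : O8 F) : O8 F ⧸ E F) (t : O8 F ⧸ E F) := by
    intro t hT
    show ((sg : O8 F) : O8 F ⧸ E F) * (t : O8 F ⧸ E F) = (t : O8 F ⧸ E F) * ((sg : O8 F) : O8 F ⧸ E F)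
    rw [← QuotientGroup.mk_mul, ← QuotientGroup.mk_mul, T1_comm_sg t hT]
  have key : Commute (a : O8 F ⧸ E F) (b : O8 F ⧸ E F) := by
    rcases h1 with h1 | h1 <;> rcases h2 with h2 | h2 <;> rw [h1, h2]
    · exact c12
    · exact ((cs t1 hT1).symm).mul_right c12
    · exact ((cs t2 hT2)).mul_left c12
    · exact (((Commute.refl _).mul_right (cs t2 hT2))).mul_left (((cs t1 hT1).symm).mul_right c12)
  exact key

end Cfsg.Agent.Lib.Helper6.D4
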