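import Mathlib
import Cfsg.Agent.Lib.Helper6.O8e

/-!
Root elements of `O₈⁺(F)` are commutators.
-/

namespace Cfsg.Agent.Lib.Helper6.D4
open Matrix
open scoped commutatorElement

variable {F : Type*} [Field F]

theorem swap_ne_swap {x y : I} (h : x ≠ y) : x.swap ≠ y.swap := by
  intro h1
  apply h
  rw [← Sum.swap_swap x, h1, Sum.swap_swap]

theorem swap_ne_of {x y : I} (h : x ≠ y.swap) : x.swap ≠ y := by
  intro h1
  apply h
  rw [← h1, Sum.swap_swap]

set_option linter.unusedSimpArgs false in
theorem comm_formula (p q s : I) (hpq : p ≠ q) (hpq' : p ≠ q.swap) (hs1 : s ≠ p)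
    (hs2 : s ≠ p.swap) (hs3 : s ≠ q) (hs4 : s ≠ q.swap) (a b : F) :
    Rm p s a * Rm s.swap q b = Rm p q (a * b) * (Rm s.swap q b * Rm p s a) := by
  rw [Matrix.ext_iff_mulVec]
  intro v
  funext i
  simp only [← Matrix.mulVec_mulVec, Rm_apply, Sum.swap_swap]
  have k1 := swap_ne_swap hpq
  have k2 := swap_ne_swap hs1
  have k3 := swap_ne_swap hs3
  have k4 := swap_ne_of hpq'
  have k5 := swap_ne_of hs2
  have k6 := swap_ne_of hs4
  simp only [hpq, hpq.symm, hpq', hpq'.symm, hs1, hs1.symm, hs2, hs2.symm, hs3, hs3.symm, hs4,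
    hs4.symm, k1, k1.symm, k2, k2.symm, k3, k3.symm, k4, k4.symm, k5, k5.symm, k6, k6.symm,
    swap_ne, (swap_ne _).symm, if_true, if_false]
  by_cases h1 : i = p
  · subst h1
    simp [hpq, hs1.symm, hs2.symm, k5.symm]
    ring
  · by_cases h2 : i = q
    · subst h2
      simp [hpq.symm, hs3.symm, k6.symm, hs4.symm]
      ring
    · simp [h1, h2]
      ring

theorem exists_third : ∀ p q : I, ∃ s : I, s ≠ p ∧ s ≠ p.swap ∧ s ≠ q ∧ s ≠ q.swap := by decide

theorem Rg_mem_commutator (p q : I) (h : p ≠ q.swap) (t : F) :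
    Rg p q h t ∈ commutator (O8 F) := by
  by_cases hpq : p = q
  · subst hpq
    have : Rg p p h t = 1 := by
      apply mat_injective
      rw [mat_Rg, mat_one, Rm, N, sub_self, smul_zero, add_zero]
    rw [this]
    exact one_mem _
  · obtain ⟨s, hs1, hs2, hs3, hs4⟩ := exists_third p q
    have h1 : p ≠ s.swap := fun h1 => hs2 (by rw [h1, Sum.swap_swap])
    have h2 : s.swap ≠ q.swap := swap_ne_swap hs3
    have key : Rg p s h1 t * Rg s.swap q h2 1 =
        Rg p q h t * (Rg s.swap q h2 1 * Rg p s h1 t) := by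
      apply mat_injective
      have := comm_formula p q s hpq h hs1 hs2 hs3 hs4 t 1
      rw [mul_one] at this
      exact this
    have : Rg p q h t = ⁅Rg p s h1 t, Rg s.swap q h2 1⁆ := by
      rw [commutatorElement_def, key]
      group
    rw [this, commutator_def]
    exact Subgroup.commutator_mem_commutator (Subgroup.mem_top _) (Subgroup.mem_top _)

theorem E_eq_commutator : E F = commutator (O8 F) := by
  apply le_antisymm
  · rw [E, Subgroup.closure_le]
    rintro _ ⟨p, q, h, t, rfl⟩
    exact Rg_mem_commutator p q h t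
  · exact commutator_le_E

end Cfsg.Agent.Lib.Helper6.D4
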