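import Mathlib
import Cfsg.Agent.Lib.Helper6.D4Ad2
import Cfsg.Agent.Lib.Helper6.O8f

/-!
Matrices acting trivially on the alternating matrices `X v` are `±1`; the root elements indexed by
the roots of `chevD4` generate `E`.
-/

namespace Cfsg.Agent.Lib.Helper6.D4
open Matrix

variable {F : Type*} [Field F]

set_option maxRecDepth 100000 in
theorem B_root_int : ∀ r : Fin 24, (B (.inr r) : Matrix I I ℤ) =
    Matrix.single (P r) (Qt r) 1 - Matrix.single (Qt r) (P r) 1 := by decide +kernel

theorem B_root (r : Fin 24) : (B (.inr r) : Matrix I I F) =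
    Matrix.single (P r) (Qt r) 1 - Matrix.single (Qt r) (P r) 1 := by
  have := congrArg (Int.castRingHom F).mapMatrix (B_root_int r)
  rwa [cast_B, map_sub, RingHom.mapMatrix_apply, RingHom.mapMatrix_apply, Matrix.map_single,
    Matrix.map_single, map_one] at this

theorem exists_root : ∀ p q : I, p ≠ q → p ≠ q.swap →
    ∃ r : Fin 24, (P r = p ∧ Qt r = q) ∨ (P r = q ∧ Qt r = p) := by decide

theorem hPQ : ∀ r : Fin 24, P r ≠ (Qt r).swap := by decide

theorem exists_X (p q : I) (h1 : p ≠ q) (h2 : p ≠ q.swap) :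
    ∃ v : Idx → F, X v = Matrix.single p q 1 - Matrix.single q p 1 := by
  obtain ⟨r, ⟨rfl, rfl⟩ | ⟨rfl, rfl⟩⟩ := exists_root p q h1 h2
  · exact ⟨Pi.single (.inr r) 1, B_root r⟩
  · refine ⟨-Pi.single (.inr r) 1, ?_⟩
    have : X (-Pi.single (.inr r) 1 : Idx → F) = - X (Pi.single (.inr r) 1) :=
      map_neg (Xl (R := F)) _
    rw [this]
    have h3 : X (Pi.single (.inr r) 1 : Idx → F) = _ := B_root r
    rw [h3, neg_sub]

theorem minor_of_fix (g : Matrix I I F) (i j : I)
    (h1 : g * (Matrix.single i j (1 : F) - Matrix.single j i 1) * gᵀ =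
      Matrix.single i j (1 : F) - Matrix.single j i 1)
    (k l : I) : g k i * g l j - g k j * g l i =
      (if k = i ∧ l = j then 1 else 0) - (if k = j ∧ l = i then 1 else 0) := by
  have h2 := congrFun (congrFun h1 k) l
  rw [Matrix.mul_sub, Matrix.sub_mul, Matrix.sub_apply, Matrix.sub_apply] at h2
  simp only [Matrix.mul_apply, Matrix.single_apply, Matrix.transpose_apply, mul_ite, mul_one,
    mul_zero, ite_and, Finset.sum_ite_eq, Finset.mem_univ, if_true, ite_mul, zero_mul] at h2
  rw [h2]
  simp only [ite_and, eq_comm]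

theorem exists_nbr : ∀ i k : I, ∃ j : I, j ≠ i ∧ j ≠ i.swap ∧ j ≠ k ∧ j ≠ k.swap := by decide

theorem eq_one_or_neg_one (g : Matrix I I F) (h : ∀ v : Idx → F, g * X v * gᵀ = X v) :
    g = 1 ∨ g = -1 := by
  have hmin : ∀ i j : I, i ≠ j → i ≠ j.swap → ∀ k l : I,
      g k i * g l j - g k j * g l i =
      (if k = i ∧ l = j then 1 else 0) - (if k = j ∧ l = i then 1 else 0) := by
    intro i j h1 h2
    obtain ⟨v, hv⟩ := exists_X (F := F) i j h1 h2
    apply minor_of_fix
    rw [← hv]
    exact h v
  have hsw : ∀ {i j : I}, j ≠ i.swap → i ≠ j.swap := by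
    intro i j h1 h2
    apply h1
    rw [h2, Sum.swap_swap]
  have hoff : ∀ k i, k ≠ i → g k i = 0 := by
    intro k i hki
    obtain ⟨j, hji, hji', hjk, -⟩ := exists_nbr i k
    have m1 := hmin i j hji.symm (hsw hji') i j
    have m2 := hmin i j hji.symm (hsw hji') k j
    have m3 := hmin i j hji.symm (hsw hji') k i
    simp [hki, hji, hji.symm, hjk.symm] at m1 m2 m3
    linear_combination (-(g k i)) * m1 + g i i * m2 - g j i * m3
  have hdiag : ∀ i j : I, j ≠ i → j ≠ i.swap → g i i * g j j = 1 := by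
    intro i j hji hji'
    have m1 := hmin i j hji.symm (hsw hji') i j
    simp [hji, hji.symm, hoff i j hji.symm] at m1
    exact m1
  have hall : ∀ i l, g i i = g l l := by
    intro i l
    obtain ⟨j, h1, h2, h3, h4⟩ := exists_nbr i l
    have e1 := hdiag i j h1 h2
    have e2 := hdiag l j h3 h4
    have hj : g j j ≠ 0 := right_ne_zero_of_mul_eq_one e1
    exact mul_right_cancel₀ hj (e1.trans e2.symm)
  have hsq : g (.inl 0) (.inl 0) * g (.inl 0) (.inl 0) = 1 := by
    have := hdiag (.inl 0) (.inl 1) (by decide) (by decide)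
    rwa [hall (.inl 1) (.inl 0)] at this
  have h01 : (g (.inl 0) (.inl 0) - 1) * (g (.inl 0) (.inl 0) + 1) = 0 := by
    linear_combination hsq
  rcases mul_eq_zero.1 h01 with h2 | h2
  · left
    ext i j
    by_cases hij : i = j
    · subst hij
      rw [hall i (.inl 0), Matrix.one_apply_eq]
      linear_combination h2
    · rw [hoff i j hij, Matrix.one_apply_ne hij]
  · right
    ext i j
    by_cases hij : i = j
    · subst hij
      rw [hall i (.inl 0), Matrix.neg_apply, Matrix.one_apply_eq]
      linear_combination h2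
    · rw [hoff i j hij, Matrix.neg_apply, Matrix.one_apply_ne hij, neg_zero]

/-- the root elements indexed by the roots of `chevD4` -/
def Rr (r : Fin 24) (t : F) : O8 F := Rg (P r) (Qt r) (hPQ r) t

theorem mat_Rr (r : Fin 24) (t : F) : mat (Rr r t) = Rm (P r) (Qt r) t := rfl

theorem N_symm (p q : I) : (N p q : Matrix I I F) = - N q p := by
  rw [N, N, neg_sub]

theorem E_eq_closure : E F = Subgroup.closure {g | ∃ (r : Fin 24) (t : F), g = Rr r t} := by
  apply le_antisymm
  · rw [E, Subgroup.closure_le]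
    rintro _ ⟨p, q, h, t, rfl⟩
    rw [SetLike.mem_coe]
    by_cases hpq : p = q
    · subst hpq
      have : Rg p p h t = 1 := by
        apply mat_injective
        rw [mat_Rg, mat_one, Rm, N, sub_self, smul_zero, add_zero]
      rw [this]
      exact one_mem _
    · obtain ⟨r, ⟨h1, h2⟩ | ⟨h1, h2⟩⟩ := exists_root p q hpq h
      · apply Subgroup.subset_closure
        refine ⟨r, t, ?_⟩
        apply mat_injective
        rw [mat_Rg, mat_Rr, h1, h2]
      · apply Subgroup.subset_closure
        refine ⟨r, -t, ?_⟩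
        apply mat_injective
        rw [mat_Rg, mat_Rr, h1, h2, Rm, Rm, N_symm p q]
        simp
  · rw [Subgroup.closure_le]
    rintro _ ⟨r, t, rfl⟩
    exact Rg_mem _ _ _ _

end Cfsg.Agent.Lib.Helper6.D4
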