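import Mathlib
import Cfsg.Agent.Lib.Helper6.SLGen

/-!
Generic lemmas for identifying `B ⧸ center B` when `B` is the image of a known group.
-/

namespace Cfsg.Agent.Lib.Helper6
open Matrix

/-- If `π : A →* B` is surjective and `N` is the set of elements of `A` that are central modulo
`ker π`, then `B ⧸ center B ≃* A ⧸ N`. -/
theorem quotient_center_equiv {A B : Type*} [Group A] [Group B] (π : A →* B)
    (hπ : Function.Surjective π) (N : Subgroup A) [N.Normal]
    (hN : ∀ a, a ∈ N ↔ ∀ a', π (a * a') = π (a' * a)) :
    Nonempty (B ⧸ Subgroup.center B ≃* A ⧸ N) := by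
  let φ : A →* B ⧸ Subgroup.center B := (QuotientGroup.mk' (Subgroup.center B)).comp π
  have hφ : Function.Surjective φ := (QuotientGroup.mk'_surjective _).comp hπ
  have hk : φ.ker = N := by
    ext a
    rw [MonoidHom.mem_ker, hN]
    show (QuotientGroup.mk (π a) : B ⧸ Subgroup.center B) = 1 ↔ _
    rw [QuotientGroup.eq_one_iff, Subgroup.mem_center_iff]
    constructor
    · intro h a'
      rw [map_mul, map_mul, h]
    · intro h b
      obtain ⟨a', rfl⟩ := hπ b
      rw [← map_mul, ← map_mul, h]
  exact ⟨((QuotientGroup.quotientMulEquivOfEq hk).symm.trans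
    (QuotientGroup.quotientKerEquivOfSurjective φ hφ)).symm⟩

/-- surjectivity by counting -/
theorem surjective_of_card {A B : Type*} [Group A] [Group B] [Finite A] [Finite B] (π : A →* B)
    (h : Nat.card A = Nat.card π.ker * Nat.card B) : Function.Surjective π := by
  rw [← MonoidHom.range_eq_top]
  apply Subgroup.eq_top_of_card_eq
  have h1 := Subgroup.card_eq_card_quotient_mul_card_subgroup π.ker
  rw [Nat.card_congr (QuotientGroup.quotientKerEquivRange π).toEquiv, h, mul_comm] at h1
  exact (Nat.eq_of_mul_eq_mul_right Nat.card_pos h1).symm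

/-- an element of `SL₂` commuting up to scalars with the two basic transvections is central. -/
theorem SL2_mem_center_of_commute_up_to {F : Type*} [Field F]
    (z : Matrix.SpecialLinearGroup (Fin 2) F)
    (h1 : ∃ r : F, (z : Matrix (Fin 2) (Fin 2) F) * Matrix.transvection 0 1 1 =
      r • (Matrix.transvection 0 1 1 * (z : Matrix (Fin 2) (Fin 2) F)))
    (h2 : ∃ r : F, (z : Matrix (Fin 2) (Fin 2) F) * Matrix.transvection 1 0 1 =
      r • (Matrix.transvection 1 0 1 * (z : Matrix (Fin 2) (Fin 2) F))) :
    z ∈ Subgroup.center (Matrix.SpecialLinearGroup (Fin 2) F) := by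
  obtain ⟨r, hr⟩ := h1
  obtain ⟨s, hs⟩ := h2
  have hdet : (z : Matrix (Fin 2) (Fin 2) F) 0 0 * (z : Matrix (Fin 2) (Fin 2) F) 1 1 -
      (z : Matrix (Fin 2) (Fin 2) F) 0 1 * (z : Matrix (Fin 2) (Fin 2) F) 1 0 = 1 := by
    rw [← Matrix.det_fin_two]
    exact z.2
  set a := (z : Matrix (Fin 2) (Fin 2) F) 0 0
  set b := (z : Matrix (Fin 2) (Fin 2) F) 0 1
  set c := (z : Matrix (Fin 2) (Fin 2) F) 1 0
  set d := (z : Matrix (Fin 2) (Fin 2) F) 1 1
  have e00 := congrFun (congrFun hr 0) 0
  have e01 := congrFun (congrFun hr 0) 1
  have e10 := congrFun (congrFun hr 1) 0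
  have e11 := congrFun (congrFun hr 1) 1
  have f00 := congrFun (congrFun hs 0) 0
  have f01 := congrFun (congrFun hs 0) 1
  have f10 := congrFun (congrFun hs 1) 0
  have f11 := congrFun (congrFun hs 1) 1
  simp [Matrix.transvection, Matrix.mul_apply, Fin.sum_univ_two, Matrix.single_apply,
    Matrix.one_apply] at e00 e01 e10 e11 f00 f01 f10 f11
  change a = r * (a + c) at e00
  change a + b = r * (b + d) at e01
  change c = r * c at e10
  change a + b = s * a at f00
  change b = s * b at f01
  change d = s * (b + d) at f11
  have hc : c = 0 ∧ a = d := by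
    by_cases hr1 : r = 1
    · subst hr1
      constructor
      · linear_combination -e00
      · linear_combination e01
    · exfalso
      have hc0 : c = 0 := by
        have : (1 - r) * c = 0 := by linear_combination e10
        rcases mul_eq_zero.1 this with h | h
        · exact absurd (by linear_combination -h) hr1
        · exact h
      have ha0 : a = 0 := by
        have : (1 - r) * a = 0 := by rw [hc0] at e00; linear_combination e00
        rcases mul_eq_zero.1 this with h | h
        · exact absurd (by linear_combination -h) hr1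
        · exact h
      rw [hc0, ha0] at hdet
      simp at hdet
  have hb : b = 0 := by
    by_cases hs1 : s = 1
    · subst hs1
      linear_combination f00
    · have : (1 - s) * b = 0 := by linear_combination f01
      rcases mul_eq_zero.1 this with h | h
      · exact absurd (by linear_combination -h) hs1
      · exact h
  obtain ⟨hc, had⟩ := hc
  rw [Matrix.SpecialLinearGroup.mem_center_iff]
  refine ⟨a, ?_, ?_⟩
  · rw [Fintype.card_fin]
    rw [hc, hb, ← had] at hdet
    linear_combination hdet
  · ext i j
    fin_cases i <;> fin_cases j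
    · simp [a]
    · simpa using hb.symm
    · simpa using hc.symm
    · simpa using had

end Cfsg.Agent.Lib.Helper6
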