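import Mathlib
import Cfsg.Agent.Lib.Helper6.D4Ker
import Cfsg.Agent.Lib.Helper6.OmegaIso
import Cfsg.Agent.Lib.Helper22.ChevZero
import Cfsg.Agent.Lib.Helper22.ChevTabD4
import Cfsg.Agent.S1023

/-!
The Chevalley group of type `D₄` over any field is isomorphic to `PΩ₈⁺(F)` (given its simplicity).
-/

namespace Cfsg.Agent.Lib.Helper6.D4
open Matrix Cfsg.Lie

variable {F : Type*} [Field F]

theorem xM_eq_x (r : Fin 24) (t : F) : xM F r t = chevD4.x F r.val t := by
  unfold ChevalleyDatum.x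
  rw [dif_pos (show r.val < chevD4.nroots from r.2)]
  rfl

theorem xM_mul (r : Fin 24) (t₁ t₂ : F) : xM F r t₁ * xM F r t₂ = xM F r (t₁ + t₂) := by
  rw [xM_eq_x, xM_eq_x, xM_eq_x]
  exact Cfsg.Agent.S1023.result chevD4 (by simp) r.val r.2 t₁ t₂

theorem xM_zero (r : Fin 24) : xM F r 0 = 1 := by
  rw [xM_eq_x]
  exact Cfsg.Agent.Lib.Helper22.x_zero Cfsg.Agent.Lib.Helper22.tbD4_valid r.val

/-- `x_r(t)` as an invertible matrix -/
def xG (r : Fin 24) (t : F) : GL Idx F :=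
  ⟨xM F r t, xM F r (-t), by rw [xM_mul, add_neg_cancel, xM_zero],
    by rw [xM_mul, neg_add_cancel, xM_zero]⟩

theorem group_eq : (chevD4.group F : Subgroup (GL Idx F)) =
    Subgroup.closure {g | ∃ (r : Fin 24) (t : F), g = xG r t} := by
  show Subgroup.closure {g : GL Idx F | ∃ (r : Fin 24) (t : F), (g : Matrix Idx Idx F) = xM F r t} = _
  congr 1
  ext g
  constructor
  · rintro ⟨r, t, h⟩
    exact ⟨r, t, Units.ext h⟩
  · rintro ⟨r, t, rfl⟩
    exact ⟨r, t, rfl⟩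

/-- pairs `(x, g)` intertwined by `X` -/
def Rel (F : Type*) [Field F] : Subgroup (GL Idx F × O8 F) where
  carrier := {x | ∀ v, X ((x.1 : Matrix Idx Idx F) *ᵥ v) = mat x.2 * X v * (mat x.2)ᵀ}
  one_mem' := by
    intro v
    show X ((1 : Matrix Idx Idx F) *ᵥ v) = (1 : Matrix I I F) * X v * (1 : Matrix I I F)ᵀ
    simp
  mul_mem' := by
    intro a b ha hb v
    show X (((a.1 : Matrix Idx Idx F) * (b.1 : Matrix Idx Idx F)) *ᵥ v) =
      (mat a.2 * mat b.2) * X v * (mat a.2 * mat b.2)ᵀ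
    rw [← Matrix.mulVec_mulVec, ha, hb, Matrix.transpose_mul]
    simp only [Matrix.mul_assoc]
  inv_mem' := by
    intro a ha v
    show X (((a.1⁻¹ : GL Idx F) : Matrix Idx Idx F) *ᵥ v) = mat a.2⁻¹ * X v * (mat a.2⁻¹)ᵀ
    have h1 := ha (((a.1⁻¹ : GL Idx F) : Matrix Idx Idx F) *ᵥ v)
    have h2 : (a.1 : Matrix Idx Idx F) * ((a.1⁻¹ : GL Idx F) : Matrix Idx Idx F) = 1 := by
      rw [← Units.val_mul, mul_inv_cancel]
      rfl
    have h3 : mat a.2⁻¹ * mat a.2 = 1 := by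
      rw [← mat_mul, inv_mul_cancel, mat_one]
    rw [Matrix.mulVec_mulVec, h2, Matrix.one_mulVec] at h1
    rw [h1]
    have h4 : (mat a.2)ᵀ * (mat a.2⁻¹)ᵀ = 1 := by
      rw [← Matrix.transpose_mul, h3, Matrix.transpose_one]
    calc X (((a.1⁻¹ : GL Idx F) : Matrix Idx Idx F) *ᵥ v)
        = (mat a.2⁻¹ * mat a.2) * X (((a.1⁻¹ : GL Idx F) : Matrix Idx Idx F) *ᵥ v) *
          ((mat a.2)ᵀ * (mat a.2⁻¹)ᵀ) := by rw [h3, h4]; simp
      _ = _ := by simp only [Matrix.mul_assoc]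

/-- the graph of the correspondence -/
def Gam (F : Type*) [Field F] : Subgroup (GL Idx F × O8 F) :=
  Subgroup.closure {x | ∃ (r : Fin 24) (t : F), x = (xG r t, Rr r t)}

theorem Gam_le_Rel : Gam F ≤ Rel F := by
  rw [Gam, Subgroup.closure_le]
  rintro _ ⟨r, t, rfl⟩
  intro v
  exact X_xM r t v

theorem map_fst_Gam : (Gam F).map (MonoidHom.fst _ _) = (chevD4.group F : Subgroup (GL Idx F)) := by
  rw [Gam, MonoidHom.map_closure, group_eq]
  congr 1
  ext g
  constructor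
  · rintro ⟨_, ⟨r, t, rfl⟩, rfl⟩
    exact ⟨r, t, rfl⟩
  · rintro ⟨r, t, rfl⟩
    exact ⟨_, ⟨r, t, rfl⟩, rfl⟩

theorem map_snd_Gam : (Gam F).map (MonoidHom.snd _ _) = commutator (O8 F) := by
  rw [Gam, MonoidHom.map_closure, ← E_eq_commutator, E_eq_closure]
  congr 1
  ext g
  constructor
  · rintro ⟨_, ⟨r, t, rfl⟩, rfl⟩
    exact ⟨r, t, rfl⟩
  · rintro ⟨r, t, rfl⟩
    exact ⟨_, ⟨r, t, rfl⟩, rfl⟩

theorem Rm_ne (p q : I) (h : p ≠ q.swap) (hpq : p ≠ q) :
    ¬ (Rm p q (1 : F) = 1 ∨ Rm p q (1 : F) = -1) := by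
  have h1 : Rm p q (1 : F) p q.swap = 1 := by
    simp [Rm, N, h, hpq.symm]
  rintro (h2 | h2)
  · rw [h2, Matrix.one_apply_ne h] at h1
    exact zero_ne_one h1
  · rw [h2, Matrix.neg_apply, Matrix.one_apply_ne h, neg_zero] at h1
    exact zero_ne_one h1

theorem iso_of_simple' (G : Subgroup (GL Idx F)) (hG : (Gam F).map (MonoidHom.fst _ _) = G)
    [IsSimpleGroup ↥G] (hnc : ¬ IsMulCommutative ↥G) :
    Nonempty (↥G ≃* Cfsg.POmega F (Cfsg.quadFormPlus 4 F)) := by
  classical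
  let f1 : ↥(Gam F) →* ↥G := ((MonoidHom.fst _ _).comp (Gam F).subtype).codRestrict G (by
    intro a
    rw [← hG]
    exact ⟨a.1, a.2, rfl⟩)
  let f2 : ↥(Gam F) →* ↥(commutator (O8 F)) :=
    ((MonoidHom.snd _ _).comp (Gam F).subtype).codRestrict _ (by
    intro a
    rw [← map_snd_Gam]
    exact ⟨a.1, a.2, rfl⟩)
  have hf1 : Function.Surjective f1 := by
    rintro ⟨y, hy⟩
    have hy' : y ∈ (Gam F).map (MonoidHom.fst _ _) := by rw [hG]; exact hy
    obtain ⟨x, hx, rfl⟩ := hy'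
    exact ⟨⟨x, hx⟩, rfl⟩
  have hf2 : Function.Surjective f2 := by
    rintro ⟨y, hy⟩
    have hy' : y ∈ (Gam F).map (MonoidHom.snd _ _) := by rw [map_snd_Gam]; exact hy
    obtain ⟨x, hx, rfl⟩ := hy'
    exact ⟨⟨x, hx⟩, rfl⟩
  have hrel : ∀ a : ↥(Gam F), ∀ v, X ((a.1.1 : Matrix Idx Idx F) *ᵥ v) =
      mat a.1.2 * X v * (mat a.1.2)ᵀ := fun a => Gam_le_Rel a.2
  -- `f2` is injective
  have hker2 : ∀ a : ↥(Gam F), f2 a = 1 → a = 1 := by
    have hn : (f2.ker.map f1).Normal := Subgroup.Normal.map inferInstance f1 hf1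
    rcases hn.eq_bot_or_eq_top with hb | ht
    · intro a ha
      have h1 : f1 a ∈ f2.ker.map f1 := ⟨a, ha, rfl⟩
      rw [hb, Subgroup.mem_bot] at h1
      apply Subtype.ext
      apply Prod.ext
      · exact congrArg Subtype.val h1
      · exact congrArg Subtype.val ha
    · exfalso
      have hx : xG (0 : Fin 24) (1 : F) ∈ G := by
        rw [← hG]
        exact ⟨(xG 0 1, Rr 0 1), Subgroup.subset_closure ⟨0, 1, rfl⟩, rfl⟩
      have h1 : (⟨xG 0 1, hx⟩ : ↥G) ∈ f2.ker.map f1 := by rw [ht]; trivial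
      obtain ⟨a, ha, ha1⟩ := h1
      have e1 : a.1.1 = xG 0 1 := congrArg Subtype.val ha1
      have e2 : a.1.2 = 1 := congrArg Subtype.val (show f2 a = 1 from ha)
      have h2 := hrel a
      rw [e1, e2] at h2
      apply Rm_ne (F := F) (P 0) (Qt 0) (hPQ 0) (by decide)
      apply eq_one_or_neg_one
      intro v
      rw [← X_xM]
      have h3 : X (xM F 0 1 *ᵥ v) = mat (1 : O8 F) * X v * (mat (1 : O8 F))ᵀ := h2 v
      rw [mat_one] at h3
      simpa using h3
  have hinj2 : Function.Injective f2 := (injective_iff_map_eq_one f2).2 hker2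
  have hcen : Subgroup.center ↥G = ⊥ := by
    rcases (inferInstance : (Subgroup.center ↥G).Normal).eq_bot_or_eq_top with h | h
    · exact h
    · exfalso
      apply hnc
      constructor
      constructor
      intro a b
      have : b ∈ Subgroup.center ↥G := by rw [h]; trivial
      exact (Subgroup.mem_center_iff.1 this a)
  obtain ⟨e1⟩ := quotient_center_equiv f2 hf2 f1.ker (fun a => ⟨fun ha a' => by
      have h1 : a.1.1 = 1 := congrArg Subtype.val (show f1 a = 1 from ha)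
      have h2 := hrel a
      rw [h1] at h2
      have h3 : mat a.1.2 = 1 ∨ mat a.1.2 = -1 := by
        apply eq_one_or_neg_one
        intro v
        have := h2 v
        rw [← this]
        simp
      rw [map_mul, map_mul]
      apply Subtype.ext
      apply mat_injective
      show mat a.1.2 * mat a'.1.2 = mat a'.1.2 * mat a.1.2
      rcases h3 with h3 | h3 <;> rw [h3] <;> simp, fun ha => by
      have h1 : ∀ a', a * a' = a' * a := fun a' => hinj2 (ha a')
      have h2 : f1 a ∈ Subgroup.center ↥G := by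
        rw [Subgroup.mem_center_iff]
        intro y
        obtain ⟨a', rfl⟩ := hf1 y
        rw [← map_mul, ← map_mul, h1]
      rw [hcen, Subgroup.mem_bot] at h2
      exact h2⟩)
  exact ⟨((QuotientGroup.quotientKerEquivOfSurjective f1 hf1).symm.trans e1.symm)⟩

theorem iso_of_simple (hs : IsSimpleGroup ↥(chevD4.group F))
    (hnc : ¬ IsMulCommutative ↥(chevD4.group F)) :
    Nonempty (↥(chevD4.group F) ≃* Cfsg.POmega F (Cfsg.quadFormPlus 4 F)) :=
  @iso_of_simple' F _ (chevD4.group F) map_fst_Gam hs hnc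

end Cfsg.Agent.Lib.Helper6.D4
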