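import Mathlib
import Cfsg.Prelude.Def_ChevB2

/-!
The matrices `x_r(t)` of the Chevalley datum `B₂` as `T0 + t T1 + t² T2` with integer tables.
-/

namespace Cfsg.Agent.Lib.Helper6.B2
open Cfsg.Lie

abbrev Idx := Fin 2 ⊕ Fin 8

def cartT (i : Fin 2) (r : Fin 8) : ℤ := (chevB2.cartanSR.getD i.val #[]).getD r.val 0
def corT (r : Fin 8) (i : Fin 2) : ℤ := (chevB2.coroot.getD r.val #[]).getD i.val 0

/-- coefficient of `t^k` in the chain table -/
def cc (k : ℕ) (r s u : Fin 8) : ℤ :=
  (((chevB2.chainCoeff r.val s.val u.val).filter (fun km => km.1 = k)).map (·.2)).sum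

theorem list_sum_aux {F : Type*} [Field F] (t : F) (L : List (ℕ × ℤ))
    (hL : ∀ km ∈ L, km.1 = 1 ∨ km.1 = 2) :
    (L.map fun km => ((km.2 : ℤ) : F) * t ^ km.1).sum =
      (((L.filter (fun km => km.1 = 1)).map (·.2)).sum : ℤ) * t +
      (((L.filter (fun km => km.1 = 2)).map (·.2)).sum : ℤ) * t ^ 2 := by
  induction L with
  | nil => simp
  | cons a L ih =>
    have h1 := ih (fun km hkm => hL km (List.mem_cons_of_mem _ hkm))
    rw [List.map_cons, List.sum_cons, h1]
    rcases hL a (List.mem_cons_self) with h | h
    · simp [List.filter_cons, h]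
      ring
    · simp [List.filter_cons, h]
      ring

theorem chain_deg : ∀ (r s u : Fin 8), ∀ km ∈ chevB2.chainCoeff r.val s.val u.val,
    km.1 = 1 ∨ km.1 = 2 := by decide

theorem chain_sum {F : Type*} [Field F] (t : F) (r s u : Fin 8) :
    ((chevB2.chainCoeff r.val s.val u.val).map fun km => ((km.2 : ℤ) : F) * t ^ km.1).sum =
      (cc 1 r s u : F) * t + (cc 2 r s u : F) * t ^ 2 :=
  list_sum_aux t _ (chain_deg r s u)

def T0 (row col : Idx) : ℤ := if row = col then 1 else 0

def T1 (r : Fin 8) (row col : Idx) : ℤ :=
  match col with
  | Sum.inl i =>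
    (match row with
     | Sum.inl _ => 0
     | Sum.inr u => if u = r then - cartT i r else 0)
  | Sum.inr s =>
    if s = r then 0
    else if s.val = chevB2.negIdx.getD r.val 0 then
      (match row with
       | Sum.inl i => corT r i
       | Sum.inr _ => 0)
    else
      (match row with
       | Sum.inl _ => 0
       | Sum.inr u => cc 1 r s u)

def T2 (r : Fin 8) (row col : Idx) : ℤ :=
  match col with
  | Sum.inl _ => 0
  | Sum.inr s =>
    if s = r then 0
    else if s.val = chevB2.negIdx.getD r.val 0 then
      (match row with
       | Sum.inl _ => 0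
       | Sum.inr u => if u = s then 0 else if u = r then -1 else 0)
    else
      (match row with
       | Sum.inl _ => 0
       | Sum.inr u => cc 2 r s u)

/-- the matrix `x_r(t)` with the index type spelled out -/
def xM (F : Type*) [Field F] (r : Fin 8) (t : F) : Matrix Idx Idx F := chevB2.xMat F r t

theorem xM_apply {F : Type*} [Field F] (r : Fin 8) (t : F) (row col : Idx) :
    xM F r t row col = (T0 row col : F) + (T1 r row col : F) * t + (T2 r row col : F) * t ^ 2 := by
  rcases col with i | s
  · rcases row with i' | u
    · show (if i' = i then (1 : F) else 0) = _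
      simp only [T0, T1, T2, Sum.inl.injEq]
      split_ifs <;> simp
    · show (if u = r then - ((cartT i r : ℤ) : F) * t else 0) = _
      simp only [T0, T1, T2, reduceCtorEq, if_false]
      split_ifs <;> simp
  · by_cases hsr : s = r
    · rcases row with i' | u
      · show (if s = r then (0 : F) else _) = _
        simp [T0, T1, T2, hsr]
      · show (if s = r then (if u = r then (1 : F) else 0) else _) = _
        simp only [T0, T1, T2, hsr, if_true, Sum.inr.injEq]
        split_ifs <;> simp
    · by_cases hneg : s.val = chevB2.negIdx.getD r.val 0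
      · rcases row with i' | u
        · show (if s = r then _ else if s.val = chevB2.negIdx.getD r.val 0 then
            ((corT r i' : ℤ) : F) * t else _) = _
          simp [T0, T1, T2, hsr, hneg]
        · show (if s = r then _ else if s.val = chevB2.negIdx.getD r.val 0 then
            (if u = s then (1 : F) else if u = r then -(t ^ 2) else 0) else _) = _
          simp only [T0, T1, T2, hsr, hneg, if_true, if_false, Sum.inr.injEq]
          split_ifs <;> simp
      · rcases row with i' | u
        · show (if s = r then _ else if s.val = chevB2.negIdx.getD r.val 0 then _ else (0 : F)) = _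
          rw [if_neg hsr, if_neg hneg]
          simp only [T0, T1, T2, hsr, hneg, if_false, reduceCtorEq]
          simp
        · show (if s = r then _ else if s.val = chevB2.negIdx.getD r.val 0 then _ else
            (if u = s then (1 : F) else 0) +
             ((chevB2.chainCoeff r.val s.val u.val).map fun km => ((km.2 : ℤ) : F) * t ^ km.1).sum) = _
          rw [chain_sum]
          simp only [T0, T1, T2, hsr, hneg, if_false, Sum.inr.injEq]
          split_ifs <;> simp [add_assoc]

end Cfsg.Agent.Lib.Helper6.B2
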