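import Mathlib
import Cfsg.Prelude.Def_Classical
import Cfsg.Agent.Lib.Helper6.SLGen

/-!
The Klein correspondence: the action of `SL₄` on alternating `4 × 4` matrices, in coordinates in
which the Pfaffian is the hyperbolic form `x₀y₀ + x₁y₁ + x₂y₂`.
-/

namespace Cfsg.Agent.Lib.Helper6.Klein
open Matrix

variable {F : Type*} [Field F]

abbrev I6 := Fin 3 ⊕ Fin 3

/-- alternating matrices -/
def X (v : I6 → F) : Matrix (Fin 4) (Fin 4) F :=
  !![0, v (.inl 0), v (.inl 1), v (.inl 2);
     - v (.inl 0), 0, v (.inr 2), - v (.inr 1);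
     - v (.inl 1), - v (.inr 2), 0, v (.inr 0);
     - v (.inl 2), v (.inr 1), - v (.inr 0), 0]

def co (Y : Matrix (Fin 4) (Fin 4) F) : I6 → F :=
  Sum.elim ![Y 0 1, Y 0 2, Y 0 3] ![Y 2 3, - Y 1 3, Y 1 2]

/-- the Pfaffian -/
def pf (Y : Matrix (Fin 4) (Fin 4) F) : F := Y 0 1 * Y 2 3 - Y 0 2 * Y 1 3 + Y 0 3 * Y 1 2

theorem Q_eq (v : I6 → F) : Cfsg.quadFormPlus 3 F v = pf (X v) := by
  simp [Cfsg.quadFormPlus, pf, X, Fin.sum_univ_three]

def Xl : (I6 → F) →ₗ[F] Matrix (Fin 4) (Fin 4) F where
  toFun := X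
  map_add' u v := by
    ext i j; fin_cases i <;> fin_cases j <;> simp [X] <;> ring
  map_smul' c v := by
    ext i j; fin_cases i <;> fin_cases j <;> simp [X]

def col : Matrix (Fin 4) (Fin 4) F →ₗ[F] (I6 → F) where
  toFun := co
  map_add' u v := by
    funext r
    rcases r with r | r <;> fin_cases r <;> simp [co] <;> ring
  map_smul' c v := by
    funext r
    rcases r with r | r <;> fin_cases r <;> simp [co]

/-- the linear map `Y ↦ A Y Aᵀ` in coordinates -/
def TT (A : Matrix (Fin 4) (Fin 4) F) : (I6 → F) →ₗ[F] (I6 → F) :=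
  col ∘ₗ LinearMap.mulLeft F A ∘ₗ LinearMap.mulRight F Aᵀ ∘ₗ Xl

theorem TT_apply (A : Matrix (Fin 4) (Fin 4) F) (v : I6 → F) :
    TT A v = co (A * (X v * Aᵀ)) := rfl

noncomputable def MM (A : Matrix (Fin 4) (Fin 4) F) : Matrix I6 I6 F :=
  LinearMap.toMatrix' (TT A)

theorem X_co_of (Z : Matrix (Fin 4) (Fin 4) F) (h0 : ∀ i, Z i i = 0)
    (h1 : ∀ i j, Z j i = - Z i j) : X (co Z) = Z := by
  ext i j
  fin_cases i <;> fin_cases j <;> simp [X, co, h0] <;> rw [h1] <;> simp

theorem X_transpose (v : I6 → F) : (X v)ᵀ = - X v := by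
  ext i j
  fin_cases i <;> fin_cases j <;> simp [X]

theorem diag_zero (A : Matrix (Fin 4) (Fin 4) F) (v : I6 → F) (i : Fin 4) :
    (A * (X v * Aᵀ)) i i = 0 := by
  simp only [Matrix.mul_apply, Fin.sum_univ_four, Matrix.transpose_apply]
  simp [X]
  ring

theorem X_co_conj (A : Matrix (Fin 4) (Fin 4) F) (v : I6 → F) :
    X (co (A * (X v * Aᵀ))) = A * (X v * Aᵀ) := by
  apply X_co_of
  · exact diag_zero A v
  · intro i j
    have h : (A * (X v * Aᵀ))ᵀ = - (A * (X v * Aᵀ)) := by
      rw [Matrix.transpose_mul, Matrix.transpose_mul, Matrix.transpose_transpose, X_transpose]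
      simp [Matrix.mul_assoc]
    have := congrFun (congrFun h i) j
    simpa using this

theorem X_MM (A : Matrix (Fin 4) (Fin 4) F) (v : I6 → F) :
    X (MM A *ᵥ v) = A * X v * Aᵀ := by
  rw [MM, LinearMap.toMatrix'_mulVec, TT_apply, X_co_conj, Matrix.mul_assoc]

theorem co_X (v : I6 → F) : co (X v) = v := by
  funext r
  rcases r with r | r <;> fin_cases r <;> simp [co, X]

theorem X_inj : Function.Injective (X : (I6 → F) → Matrix (Fin 4) (Fin 4) F) := by
  intro u v h
  rw [← co_X u, ← co_X v, h]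

theorem ext_mulVec {A B : Matrix I6 I6 F} (h : ∀ v, A *ᵥ v = B *ᵥ v) : A = B := by
  ext i j
  simpa using congrFun (h (Pi.single j 1)) i

theorem MM_one : MM (1 : Matrix (Fin 4) (Fin 4) F) = 1 := by
  apply ext_mulVec
  intro v
  apply X_inj
  rw [X_MM]
  simp

theorem MM_mul (A B : Matrix (Fin 4) (Fin 4) F) : MM (A * B) = MM A * MM B := by
  apply ext_mulVec
  intro v
  apply X_inj
  rw [← mulVec_mulVec, X_MM, X_MM, X_MM, Matrix.transpose_mul]
  simp only [Matrix.mul_assoc]

theorem pf_transvection (i j : Fin 4) (hij : i ≠ j) (c : F) (v : I6 → F) :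
    pf (Matrix.transvection i j c * X v * (Matrix.transvection i j c)ᵀ) = pf (X v) := by
  fin_cases i <;> fin_cases j <;> first | exact absurd rfl hij | skip
  all_goals
    simp [pf, X, Matrix.transvection, Matrix.mul_apply, Fin.sum_univ_four, Matrix.single_apply,
      Matrix.one_apply]
  all_goals try ring

theorem MM_pres (g : Matrix.SpecialLinearGroup (Fin 4) F) (v : I6 → F) :
    Cfsg.quadFormPlus 3 F (MM (g : Matrix (Fin 4) (Fin 4) F) *ᵥ v) = Cfsg.quadFormPlus 3 F v := by
  induction g using SL_transvection_induction generalizing v with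
  | htransvec i j h c =>
    rw [Q_eq, Q_eq, X_MM]
    exact pf_transvection i j h c v
  | hmul A B hA hB =>
    rw [Matrix.SpecialLinearGroup.coe_mul, MM_mul, ← mulVec_mulVec, hA, hB]

theorem exists_third : ∀ i k : Fin 4, ∃ j, j ≠ i ∧ j ≠ k := by decide

theorem minor_eq (g : Matrix (Fin 4) (Fin 4) F) (h : MM g = 1) (i j : Fin 4) (hij : i ≠ j)
    (k l : Fin 4) : g k i * g l j - g k j * g l i =
      (if k = i ∧ l = j then 1 else 0) - (if k = j ∧ l = i then 1 else 0) := by
  have hY : X (co (Matrix.single i j (1 : F) - Matrix.single j i 1)) =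
      Matrix.single i j (1 : F) - Matrix.single j i 1 := by
    apply X_co_of
    · intro m
      simp only [Matrix.sub_apply, Matrix.single_apply]
      rw [if_neg (fun hh => hij (hh.1.trans hh.2.symm)), if_neg (fun hh => hij (hh.2.trans hh.1.symm)),
        sub_zero]
    · intro m n
      simp [Matrix.single_apply, and_comm]
  have h1 := X_MM g (co (Matrix.single i j (1 : F) - Matrix.single j i 1))
  rw [h, one_mulVec, hY] at h1
  have h2 := congrFun (congrFun h1 k) l
  rw [Matrix.mul_sub, Matrix.sub_mul, Matrix.sub_apply, Matrix.sub_apply] at h2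
  simp only [Matrix.mul_apply, Matrix.single_apply, Matrix.transpose_apply, mul_ite, mul_one,
    mul_zero, ite_and, Finset.sum_ite_eq, Finset.mem_univ, if_true, ite_mul, zero_mul,
    Finset.sum_ite_eq'] at h2
  rw [← h2]
  simp only [ite_and, eq_comm]

theorem eq_one_or_neg_one (g : Matrix (Fin 4) (Fin 4) F) (h : MM g = 1) : g = 1 ∨ g = -1 := by
  have hoff : ∀ k i, k ≠ i → g k i = 0 := by
    intro k i hki
    obtain ⟨j, hji, hjk⟩ := exists_third i k
    have m1 := minor_eq g h i j hji.symm i j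
    have m2 := minor_eq g h i j hji.symm k j
    have m3 := minor_eq g h i j hji.symm k i
    simp [hki, hji, hji.symm, hjk.symm] at m1 m2 m3
    linear_combination (-(g k i)) * m1 + g i i * m2 - g j i * m3
  have hdiag : ∀ i j, i ≠ j → g i i * g j j = 1 := by
    intro i j hij
    have m1 := minor_eq g h i j hij i j
    simp [hij, hij.symm, hoff i j hij] at m1
    exact m1
  have hall : ∀ i, g i i = g 0 0 := by
    intro i
    by_cases hi : i = 0
    · rw [hi]
    · obtain ⟨j, hj0, hji⟩ := exists_third 0 i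
      have e1 := hdiag i j hji.symm
      have e2 := hdiag 0 j hj0.symm
      have hj : g j j ≠ 0 := by
        intro h0
        rw [h0, mul_zero] at e1
        exact zero_ne_one e1
      exact mul_right_cancel₀ hj (e1.trans e2.symm)
  have hsq : g 0 0 * g 0 0 = 1 := by
    have := hdiag 0 1 (by decide)
    rwa [hall 1] at this
  have h01 : (g 0 0 - 1) * (g 0 0 + 1) = 0 := by linear_combination hsq
  rcases mul_eq_zero.1 h01 with h2 | h2
  · left
    ext i j
    by_cases hij : i = j
    · subst hij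
      rw [hall, Matrix.one_apply_eq]
      linear_combination h2
    · rw [hoff i j hij, Matrix.one_apply_ne hij]
  · right
    ext i j
    by_cases hij : i = j
    · subst hij
      rw [hall, Matrix.neg_apply, Matrix.one_apply_eq]
      linear_combination h2
    · rw [hoff i j hij, Matrix.neg_apply, Matrix.one_apply_ne hij, neg_zero]

end Cfsg.Agent.Lib.Helper6.Klein
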