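import Mathlib
import Cfsg.Prelude.Def_Classical
import Cfsg.Agent.Lib.Helper6.Klein

/-!
The restriction of the Klein correspondence to `Sp₄`: action on the 5-dimensional space
`v_J^⊥` of alternating matrices, odd characteristic.
-/

namespace Cfsg.Agent.Lib.Helper6.Klein5
open Matrix Cfsg.Agent.Lib.Helper6.Klein

variable {F : Type*} [Field F]

abbrev I5 := Unit ⊕ (Fin 2 ⊕ Fin 2)
abbrev I4 := Fin 2 ⊕ Fin 2

def emb : (I5 → F) →ₗ[F] (I6 → F) where
  toFun v := Sum.elim ![v (.inr (.inl 0)), v (.inl ()), v (.inr (.inl 1))]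
    ![v (.inr (.inr 0)), v (.inl ()), v (.inr (.inr 1))]
  map_add' u v := by
    funext r
    rcases r with r | r <;> fin_cases r <;> simp
  map_smul' c v := by
    funext r
    rcases r with r | r <;> fin_cases r <;> simp

def prj : (I6 → F) →ₗ[F] (I5 → F) where
  toFun w := Sum.elim (fun _ => w (.inl 1)) (Sum.elim ![w (.inl 0), w (.inl 2)] ![w (.inr 0), w (.inr 2)])
  map_add' u v := by
    funext r
    rcases r with r | r | r
    · simp
    · fin_cases r <;> simp
    · fin_cases r <;> simp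
  map_smul' c v := by
    funext r
    rcases r with r | r | r
    · simp
    · fin_cases r <;> simp
    · fin_cases r <;> simp

theorem prj_emb (v : I5 → F) : prj (emb v) = v := by
  funext r
  rcases r with r | r | r
  · simp [prj, emb]
  · fin_cases r <;> simp [prj, emb]
  · fin_cases r <;> simp [prj, emb]

theorem emb_prj (w : I6 → F) (h : w (.inl 1) = w (.inr 1)) : emb (prj w) = w := by
  funext r
  rcases r with r | r <;> fin_cases r <;> simp [prj, emb, h]

theorem emb_injective : Function.Injective (emb : (I5 → F) → (I6 → F)) := by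
  intro u v h
  rw [← prj_emb u, ← prj_emb v, h]

theorem Q_emb (v : I5 → F) : Cfsg.quadFormPlus 3 F (emb v) = Cfsg.quadFormOdd 2 F v := by
  simp [Cfsg.quadFormPlus, Cfsg.quadFormOdd, emb, Fin.sum_univ_three, Fin.sum_univ_two]
  ring

/-- reindexing to `Fin 4` -/
def e4 : Fin 4 ≃ I4 where
  toFun := ![.inl 0, .inl 1, .inr 0, .inr 1]
  invFun := Sum.elim ![0, 1] ![2, 3]
  left_inv := by decide
  right_inv := by decide

def re (A : Matrix I4 I4 F) : Matrix (Fin 4) (Fin 4) F := A.submatrix e4 e4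

theorem re_mul (A B : Matrix I4 I4 F) : re (A * B) = re A * re B := by
  simp [re, Matrix.submatrix_mul_equiv]

theorem re_one : re (1 : Matrix I4 I4 F) = 1 := by
  simp [re]

theorem re_neg (A : Matrix I4 I4 F) : re (-A) = - re A := rfl

theorem re_transpose (A : Matrix I4 I4 F) : re Aᵀ = (re A)ᵀ := rfl

theorem re_injective : Function.Injective (re : Matrix I4 I4 F → Matrix (Fin 4) (Fin 4) F) := by
  intro A B h
  ext i j
  have := congrFun (congrFun h (e4.symm i)) (e4.symm j)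
  simpa [re] using this

theorem det_re (A : Matrix I4 I4 F) : (re A).det = A.det := by
  simp [re]

def vJ : I6 → F := Sum.elim ![0, -1, 0] ![0, 1, 0]

theorem re_J : re (Matrix.J (Fin 2) F) = X vJ := by
  ext i j
  fin_cases i <;> fin_cases j <;> simp [re, X, vJ, Matrix.J, e4]

theorem trace_X_J (w : I6 → F) : (X w * X vJ).trace = 2 * (w (.inl 1) - w (.inr 1)) := by
  simp [Matrix.trace, Matrix.mul_apply, Fin.sum_univ_four, X, vJ]
  ring

theorem re_symp {A : Matrix I4 I4 F} (hA : A ∈ Matrix.symplecticGroup (Fin 2) F) :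
    re A * X vJ * (re A)ᵀ = X vJ := by
  rw [← re_J, ← re_transpose, ← re_mul, ← re_mul, (SymplecticGroup.mem_iff).1 hA]

theorem re_symp' {A : Matrix I4 I4 F} (hA : A ∈ Matrix.symplecticGroup (Fin 2) F) :
    (re A)ᵀ * X vJ * re A = X vJ := by
  rw [← re_J, ← re_transpose, ← re_mul, ← re_mul, (SymplecticGroup.mem_iff').1 hA]

theorem MM_vJ {A : Matrix I4 I4 F} (hA : A ∈ Matrix.symplecticGroup (Fin 2) F) :
    MM (re A) *ᵥ vJ = vJ := by
  apply X_inj
  rw [X_MM, re_symp hA]

theorem MM_diff (h2 : (2 : F) ≠ 0) {A : Matrix I4 I4 F}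
    (hA : A ∈ Matrix.symplecticGroup (Fin 2) F) (w : I6 → F) :
    (MM (re A) *ᵥ w) (.inl 1) - (MM (re A) *ᵥ w) (.inr 1) = w (.inl 1) - w (.inr 1) := by
  apply mul_left_cancel₀ h2
  rw [← trace_X_J, ← trace_X_J, X_MM, Matrix.mul_assoc, Matrix.mul_assoc, Matrix.trace_mul_comm,
    Matrix.mul_assoc, Matrix.mul_assoc, ← Matrix.mul_assoc _ _ (re A), re_symp' hA]

/-- the 5-dimensional representation -/
noncomputable def M5 (A : Matrix I4 I4 F) : Matrix I5 I5 F :=
  LinearMap.toMatrix' (prj ∘ₗ Matrix.toLin' (MM (re A)) ∘ₗ emb)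

theorem emb_M5 (h2 : (2 : F) ≠ 0) {A : Matrix I4 I4 F}
    (hA : A ∈ Matrix.symplecticGroup (Fin 2) F) (v : I5 → F) :
    emb (M5 A *ᵥ v) = MM (re A) *ᵥ emb v := by
  rw [M5, LinearMap.toMatrix'_mulVec]
  simp only [LinearMap.comp_apply, Matrix.toLin'_apply]
  apply emb_prj
  have := MM_diff h2 hA (emb v)
  have h0 : (emb v) (.inl 1) - (emb v) (.inr 1) = 0 := by simp [emb]
  rw [h0] at this
  exact sub_eq_zero.1 this

theorem ext_mulVec5 {A B : Matrix I5 I5 F} (h : ∀ v, A *ᵥ v = B *ᵥ v) : A = B := by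
  ext i j
  simpa using congrFun (h (Pi.single j 1)) i

theorem M5_one (h2 : (2 : F) ≠ 0) : M5 (1 : Matrix I4 I4 F) = 1 := by
  apply ext_mulVec5
  intro v
  apply emb_injective
  rw [emb_M5 h2 (one_mem _), re_one, MM_one]
  simp

theorem M5_mul (h2 : (2 : F) ≠ 0) {A B : Matrix I4 I4 F}
    (hA : A ∈ Matrix.symplecticGroup (Fin 2) F) (hB : B ∈ Matrix.symplecticGroup (Fin 2) F) :
    M5 (A * B) = M5 A * M5 B := by
  apply ext_mulVec5
  intro v
  apply emb_injective
  rw [emb_M5 h2 (mul_mem hA hB), ← mulVec_mulVec, emb_M5 h2 hA, emb_M5 h2 hB, re_mul, MM_mul,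
    mulVec_mulVec]

theorem M5_pres (h2 : (2 : F) ≠ 0) {A : Matrix I4 I4 F}
    (hA : A ∈ Matrix.symplecticGroup (Fin 2) F) (v : I5 → F) :
    Cfsg.quadFormOdd 2 F (M5 A *ᵥ v) = Cfsg.quadFormOdd 2 F v := by
  rw [← Q_emb, ← Q_emb, emb_M5 h2 hA]
  have hdet : (re A).det = 1 := by
    rw [det_re]
    exact SymplecticGroup.det_eq_one hA
  exact MM_pres ⟨re A, hdet⟩ (emb v)

theorem eq_one_or_neg_one5 (h2 : (2 : F) ≠ 0) {A : Matrix I4 I4 F}
    (hA : A ∈ Matrix.symplecticGroup (Fin 2) F) (h : M5 A = 1) : A = 1 ∨ A = -1 := by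
  have h1 : MM (re A) = 1 := by
    apply ext_mulVec
    intro w
    have hw : w = emb (prj (w + ((w (.inl 1) - w (.inr 1)) / 2) • vJ)) -
        ((w (.inl 1) - w (.inr 1)) / 2) • vJ := by
      rw [emb_prj]
      · simp
      · simp [vJ]
        field_simp
        ring
    rw [one_mulVec]
    conv_lhs => rw [hw]
    rw [Matrix.mulVec_sub, Matrix.mulVec_smul, MM_vJ hA, ← emb_M5 h2 hA, h, one_mulVec, ← hw]
  rcases eq_one_or_neg_one _ h1 with h3 | h3
  · left
    apply re_injective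
    rw [h3, re_one]
  · right
    apply re_injective
    rw [h3, re_neg, re_one]

end Cfsg.Agent.Lib.Helper6.Klein5
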