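import Mathlib
import Cfsg.Agent.Lib.Helper6.B2Tab
import Cfsg.Agent.Lib.Helper6.Klein5

/-!
The adjoint action of `Sp₄(F)` on `sp₄(F)` in a Chevalley basis matching the tables of `chevB2`.
-/

namespace Cfsg.Agent.Lib.Helper6.B2
open Matrix Cfsg.Agent.Lib.Helper6.Klein5

section ring
variable {R : Type*} [CommRing R]

/-- the element of `sp₄` with given coordinates -/
def X (v : Idx → R) : Matrix (Fin 4) (Fin 4) R :=
  !![v (.inl 0), v (.inr 5), v (.inr 7), v (.inr 6);
     v (.inr 2), - v (.inl 0) + v (.inl 1), v (.inr 6), - v (.inr 4);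
     v (.inr 0), v (.inr 1), - v (.inl 0), - v (.inr 2);
     v (.inr 1), - v (.inr 3), - v (.inr 5), v (.inl 0) - v (.inl 1)]

def co (Y : Matrix (Fin 4) (Fin 4) R) : Idx → R :=
  Sum.elim ![Y 0 0, Y 0 0 + Y 1 1] ![Y 2 0, Y 3 0, Y 1 0, - Y 3 1, - Y 1 3, Y 0 1, Y 0 3, Y 0 2]

def JJ : Matrix (Fin 4) (Fin 4) R := !![0, 0, -1, 0; 0, 0, 0, -1; 1, 0, 0, 0; 0, 1, 0, 0]

theorem co_X (v : Idx → R) : co (X v) = v := by
  funext r
  rcases r with r | r <;> fin_cases r <;> simp [co, X]

theorem X_inj : Function.Injective (X : (Idx → R) → Matrix (Fin 4) (Fin 4) R) := by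
  intro u v h
  rw [← co_X u, ← co_X v, h]

theorem X_map {S : Type*} [CommRing S] (f : R →+* S) (v : Idx → R) :
    (X v).map f = X (fun i => f (v i)) := by
  ext i j
  fin_cases i <;> fin_cases j <;> simp [X]

theorem X_JJ (v : Idx → R) : X v * JJ + JJ * (X v)ᵀ = 0 := by
  ext i j
  simp only [Matrix.add_apply, Matrix.mul_apply, Fin.sum_univ_four, Matrix.transpose_apply,
    Matrix.zero_apply]
  fin_cases i <;> fin_cases j <;> simp [X, JJ]

theorem X_co_of (Y : Matrix (Fin 4) (Fin 4) R) (h : Y * JJ + JJ * Yᵀ = 0) : X (co Y) = Y := by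
  have e := fun i j => congrFun (congrFun h i) j
  have e00 := e 0 0
  have e01 := e 0 1
  have e02 := e 0 2
  have e03 := e 0 3
  have e12 := e 1 2
  have e13 := e 1 3
  have e23 := e 2 3
  simp only [Matrix.add_apply, Matrix.mul_apply, Fin.sum_univ_four, Matrix.transpose_apply,
    Matrix.zero_apply] at e00 e01 e02 e03 e12 e13 e23
  simp [JJ] at e00 e01 e02 e03 e12 e13 e23
  ext i j
  fin_cases i <;> fin_cases j <;> simp [X, co]
  all_goals first | linear_combination e00 | linear_combination e01 | linear_combination e02 | linear_combination e03 | linear_combination e12 | linear_combination e13 | linear_combination e23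

def Xl : (Idx → R) →ₗ[R] Matrix (Fin 4) (Fin 4) R where
  toFun := X
  map_add' u v := by
    ext i j; fin_cases i <;> fin_cases j <;> simp [X] <;> ring
  map_smul' c v := by
    ext i j; fin_cases i <;> fin_cases j <;> simp [X] <;> ring

def col : Matrix (Fin 4) (Fin 4) R →ₗ[R] (Idx → R) where
  toFun := co
  map_add' u v := by
    funext r
    rcases r with r | r <;> fin_cases r <;> simp [co] <;> ring
  map_smul' c v := by
    funext r
    rcases r with r | r <;> fin_cases r <;> simp [co] <;> ring

/-- basis elements -/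
def B (c : Idx) : Matrix (Fin 4) (Fin 4) R := X (Pi.single c 1)

theorem B_map {S : Type*} [CommRing S] (f : R →+* S) (c : Idx) : (B c : Matrix _ _ R).map f = B c := by
  rw [B, X_map, B]
  congr 1
  funext i
  by_cases h : i = c
  · subst h; simp
  · simp [Pi.single_eq_of_ne h]

end ring

set_option maxRecDepth 100000 in
theorem idT0 : ∀ c : Idx, X (fun row => T0 row c) = (B c : Matrix _ _ ℤ) := by decide +kernel

set_option maxRecDepth 100000 in
theorem idT1 : ∀ (r : Fin 8) (c : Idx), X (fun row => T1 r row c) =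
    (B (.inr r) * B c - B c * B (.inr r) : Matrix _ _ ℤ) := by decide +kernel

set_option maxRecDepth 100000 in
theorem idT2 : ∀ (r : Fin 8) (c : Idx), X (fun row => T2 r row c) =
    (- (B (.inr r) * B c * B (.inr r)) : Matrix _ _ ℤ) := by decide +kernel

set_option maxRecDepth 100000 in
theorem idE2 : ∀ (r : Fin 8), (B (.inr r) * B (.inr r) : Matrix _ _ ℤ) = 0 := by decide +kernel

end Cfsg.Agent.Lib.Helper6.B2
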