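import Mathlib
import Cfsg.Agent.Lib.Helper6.B2Ad

/-!
The adjoint action of `Sp₄(F)` on `sp₄(F)`: root elements act by the matrices `x_r(t)`.
-/

namespace Cfsg.Agent.Lib.Helper6.B2
open Matrix Cfsg.Agent.Lib.Helper6.Klein5

variable {F : Type*} [Field F]

theorem cast_X (w : Idx → ℤ) :
    (Int.castRingHom F).mapMatrix (X w) = X (fun i => ((w i : ℤ) : F)) := by
  rw [RingHom.mapMatrix_apply, X_map]
  rfl

theorem cast_B (c : Idx) : (Int.castRingHom F).mapMatrix (B c) = B c := by
  rw [RingHom.mapMatrix_apply, B_map]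

theorem E_sq (r : Fin 8) : (B (.inr r) * B (.inr r) : Matrix _ _ F) = 0 := by
  have := congrArg (Int.castRingHom F).mapMatrix (idE2 r)
  rwa [map_mul, cast_B, map_zero] at this

/-- the root element `1 + t e_r` as a `4 × 4` matrix -/
def G (r : Fin 8) (t : F) : Matrix (Fin 4) (Fin 4) F := 1 + t • B (.inr r)

theorem X_xM_col (r : Fin 8) (t : F) (c : Idx) :
    X (fun row => xM F r t row c) = G r t * B c * G r (-t) := by
  have e0 := congrArg (Int.castRingHom F).mapMatrix (idT0 c)
  have e1 := congrArg (Int.castRingHom F).mapMatrix (idT1 r c)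
  have e2 := congrArg (Int.castRingHom F).mapMatrix (idT2 r c)
  rw [cast_X, cast_B] at e0
  rw [cast_X, map_sub, map_mul, map_mul, cast_B, cast_B] at e1
  rw [cast_X, map_neg, map_mul, map_mul, cast_B, cast_B] at e2
  have hx : (fun row => xM F r t row c) = (fun row => ((T0 row c : ℤ) : F)) +
      t • (fun row => ((T1 r row c : ℤ) : F)) + (t ^ 2) • (fun row => ((T2 r row c : ℤ) : F)) := by
    funext row
    rw [xM_apply]
    simp only [Pi.add_apply, Pi.smul_apply, smul_eq_mul]
    ring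
  have hX : X (fun row => xM F r t row c) = X (fun row => ((T0 row c : ℤ) : F)) +
      t • X (fun row => ((T1 r row c : ℤ) : F)) + (t ^ 2) • X (fun row => ((T2 r row c : ℤ) : F)) := by
    rw [hx]
    exact (map_add (Xl (R := F)) _ _).trans (by
      rw [map_add, map_smul, map_smul]
      rfl)
  rw [hX, e0, e1, e2, G, G]
  simp only [Matrix.add_mul, Matrix.mul_add, Matrix.one_mul, Matrix.mul_one, Matrix.smul_mul,
    Matrix.mul_smul]
  module

theorem X_xM (r : Fin 8) (t : F) (v : Idx → F) :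
    X (xM F r t *ᵥ v) = G r t * X v * G r (-t) := by
  have : (Xl (R := F)) ∘ₗ Matrix.toLin' (xM F r t) =
      LinearMap.mulLeft F (G r t) ∘ₗ LinearMap.mulRight F (G r (-t)) ∘ₗ Xl := by
    apply (Pi.basisFun F Idx).ext
    intro c
    have h1 : xM F r t *ᵥ Pi.single c 1 = fun row => xM F r t row c := by
      funext row
      simp
    rw [Pi.basisFun_apply]
    show X (xM F r t *ᵥ Pi.single c 1) = G r t * (X (Pi.single c 1) * G r (-t))
    rw [h1, X_xM_col, Matrix.mul_assoc]
    rfl
  have h2 := LinearMap.congr_fun this v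
  have h3 : X (xM F r t *ᵥ v) = G r t * (X v * G r (-t)) := h2
  rw [h3, Matrix.mul_assoc]

theorem G_mul_neg (r : Fin 8) (t : F) : G r t * G r (-t) = 1 := by
  rw [G, G]
  simp only [Matrix.add_mul, Matrix.mul_add, Matrix.one_mul, Matrix.mul_one, Matrix.smul_mul,
    Matrix.mul_smul, E_sq]
  module

theorem JJ_sq : (JJ * JJ : Matrix (Fin 4) (Fin 4) F) = -1 := by
  ext i j
  simp only [Matrix.mul_apply, Fin.sum_univ_four]
  fin_cases i <;> fin_cases j <;> simp [JJ]

theorem G_symp (r : Fin 8) (t : F) : G r t * JJ * (G r t)ᵀ = JJ := by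
  have h1 : (B (.inr r) : Matrix _ _ F) * JJ + JJ * (B (.inr r))ᵀ = 0 := X_JJ _
  have h2 : JJ * (B (.inr r) : Matrix _ _ F)ᵀ = - (B (.inr r) * JJ) := by
    rw [eq_neg_iff_add_eq_zero, add_comm]
    exact h1
  rw [G, Matrix.transpose_add, Matrix.transpose_one, Matrix.transpose_smul]
  simp only [Matrix.add_mul, Matrix.mul_add, Matrix.one_mul, Matrix.mul_one, Matrix.smul_mul,
    Matrix.mul_smul]
  rw [Matrix.mul_assoc (B (.inr r)) JJ, h2, Matrix.mul_neg, ← Matrix.mul_assoc, E_sq]
  simp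

theorem re_J' : re (Matrix.J (Fin 2) F) = JJ := by
  ext i j
  fin_cases i <;> fin_cases j <;> simp [re, JJ, Matrix.J, e4]

/-- back to the index type `Fin 2 ⊕ Fin 2` -/
def un (M : Matrix (Fin 4) (Fin 4) F) : Matrix I4 I4 F := M.submatrix e4.symm e4.symm

theorem re_un (M : Matrix (Fin 4) (Fin 4) F) : re (un M) = M := by
  ext i j
  simp [re, un]

theorem un_re (M : Matrix I4 I4 F) : un (re M) = M := by
  ext i j
  simp [re, un]

theorem mem_symp_iff (A : Matrix I4 I4 F) :
    A ∈ Matrix.symplecticGroup (Fin 2) F ↔ re A * JJ * (re A)ᵀ = JJ := by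
  rw [SymplecticGroup.mem_iff, ← re_J', ← re_transpose, ← re_mul, ← re_mul]
  exact ⟨fun h => by rw [h], fun h => re_injective h⟩

/-- the root elements of `Sp₄(F)` -/
def rootElt (r : Fin 8) (t : F) : Matrix.symplecticGroup (Fin 2) F :=
  ⟨un (G r t), by rw [mem_symp_iff, re_un]; exact G_symp r t⟩

theorem re_rootElt (r : Fin 8) (t : F) : re (rootElt r t : Matrix I4 I4 F) = G r t := re_un _

theorem rootElt_inv (r : Fin 8) (t : F) : (rootElt r t)⁻¹ = rootElt r (-t) := by
  rw [inv_eq_iff_mul_eq_one]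
  apply Subtype.ext
  apply re_injective
  show re ((rootElt r t : Matrix I4 I4 F) * (rootElt r (-t) : Matrix I4 I4 F)) = re 1
  rw [re_mul, re_rootElt, re_rootElt, G_mul_neg, re_one]

end Cfsg.Agent.Lib.Helper6.B2
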