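import Mathlib
import Cfsg.Agent.Lib.Helper6.B2Ad2
import Cfsg.Agent.S0765

/-!
`Sp₄(F)` is generated by its eight root subgroups.
-/

namespace Cfsg.Agent.Lib.Helper6.B2
open Matrix Cfsg.Agent.Lib.Helper6.Klein5

variable {F : Type*} [Field F]

/-- the subgroup generated by the root elements -/
def K (F : Type*) [Field F] : Subgroup (Matrix.symplecticGroup (Fin 2) F) :=
  Subgroup.closure {g | ∃ (r : Fin 8) (t : F), g = rootElt r t}

theorem rootElt_mem (r : Fin 8) (t : F) : rootElt r t ∈ K F :=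
  Subgroup.subset_closure ⟨r, t, rfl⟩

theorem G7 (t a b c d : F) : G 7 t *ᵥ ![a, b, c, d] = ![a + t * c, b, c, d] := by
  funext i
  fin_cases i <;> simp [G, B, X, Matrix.mulVec, dotProduct, Fin.sum_univ_four] <;> try ring

theorem G0 (t a b c d : F) : G 0 t *ᵥ ![a, b, c, d] = ![a, b, c + t * a, d] := by
  funext i
  fin_cases i <;> simp [G, B, X, Matrix.mulVec, dotProduct, Fin.sum_univ_four] <;> try ring

theorem G5 (t a b c d : F) : G 5 t *ᵥ ![a, b, c, d] = ![a + t * b, b, c, d - t * c] := by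
  funext i
  fin_cases i <;> simp [G, B, X, Matrix.mulVec, dotProduct, Fin.sum_univ_four] <;> try ring

theorem G2 (t a b c d : F) : G 2 t *ᵥ ![a, b, c, d] = ![a, b + t * a, c - t * d, d] := by
  funext i
  fin_cases i <;> simp [G, B, X, Matrix.mulVec, dotProduct, Fin.sum_univ_four] <;> try ring

theorem G6 (t a b c d : F) : G 6 t *ᵥ ![a, b, c, d] = ![a + t * d, b + t * c, c, d] := by
  funext i
  fin_cases i <;> simp [G, B, X, Matrix.mulVec, dotProduct, Fin.sum_univ_four] <;> try ring

theorem G1 (t a b c d : F) : G 1 t *ᵥ ![a, b, c, d] = ![a, b, c + t * b, d + t * a] := by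
  funext i
  fin_cases i <;> simp [G, B, X, Matrix.mulVec, dotProduct, Fin.sum_univ_four] <;> try ring

def P (u : Fin 4 → F) : Prop :=
  ∃ g : Matrix.symplecticGroup (Fin 2) F, g ∈ K F ∧ re (g : Matrix I4 I4 F) *ᵥ u = ![1, 0, 0, 0]

theorem P_step (r : Fin 8) (t : F) (u : Fin 4 → F) (h : P (G r t *ᵥ u)) : P u := by
  obtain ⟨g, hg, hgu⟩ := h
  refine ⟨g * rootElt r t, mul_mem hg (rootElt_mem r t), ?_⟩
  show re ((g : Matrix I4 I4 F) * (rootElt r t : Matrix I4 I4 F)) *ᵥ u = _
  rw [re_mul, re_rootElt, ← mulVec_mulVec, hgu]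

theorem P_one (b c d : F) : P ![1, b, c, d] := by
  apply P_step 2 (-b)
  rw [G2]
  apply P_step 1 (-d)
  rw [G1]
  apply P_step 0 (-(c - -b * d + -d * (b + -b * 1)))
  rw [G0]
  refine ⟨1, one_mem _, ?_⟩
  show re (1 : Matrix I4 I4 F) *ᵥ _ = _
  rw [re_one, one_mulVec]
  funext i
  fin_cases i <;> simp

theorem P_c (a b c d : F) (hc : c ≠ 0) : P ![a, b, c, d] := by
  apply P_step 7 ((1 - a) / c)
  rw [G7]
  have : a + (1 - a) / c * c = 1 := by field_simp; ring
  rw [this]
  exact P_one _ _ _

theorem P_ac (a b c d : F) (h : a ≠ 0 ∨ c ≠ 0) : P ![a, b, c, d] := by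
  by_cases hc : c = 0
  · have ha : a ≠ 0 := by
      rcases h with h | h
      · exact h
      · exact absurd hc h
    apply P_step 0 1
    rw [G0]
    apply P_c
    rw [hc]
    simpa using ha
  · exact P_c _ _ _ _ hc

theorem P_all (u : Fin 4 → F) (hu : u ≠ 0) : P u := by
  have hu' : u = ![u 0, u 1, u 2, u 3] := by
    funext i
    fin_cases i <;> rfl
  rw [hu']
  by_cases h : u 0 ≠ 0 ∨ u 2 ≠ 0
  · exact P_ac _ _ _ _ h
  · push Not at h
    by_cases hb : u 1 = 0
    · have hd : u 3 ≠ 0 := by
        intro hd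
        apply hu
        funext i
        fin_cases i
        · exact h.1
        · exact hb
        · exact h.2
        · exact hd
      apply P_step 6 1
      rw [G6]
      apply P_ac
      left
      rw [h.1]
      simpa using hd
    · apply P_step 5 1
      rw [G5]
      apply P_ac
      left
      rw [h.1]
      simpa using hb

theorem re_mulVec (A : Matrix I4 I4 F) (w : I4 → F) : re A *ᵥ (w ∘ e4) = (A *ᵥ w) ∘ e4 := by
  funext i
  simp only [Matrix.mulVec, dotProduct, re, Matrix.submatrix_apply, Function.comp]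
  exact Equiv.sum_comp e4 (fun j => A (e4 i) j * w j)

theorem transv_single (c : F) :
    Cfsg.sympTransvection 2 (Pi.single (Sum.inl 0) 1 : I4 → F) c = (rootElt 7 c : Matrix I4 I4 F) := by
  apply re_injective
  rw [re_rootElt]
  ext i j
  fin_cases i <;> fin_cases j <;>
    simp [re, e4, G, B, X, Cfsg.sympTransvection, Matrix.vecMulVec_apply, Matrix.J, Matrix.mulVec,
      dotProduct, Pi.single_apply]

theorem K_eq_top : K F = ⊤ := by
  rw [eq_top_iff, ← Cfsg.Agent.S0765.result, Subgroup.closure_le]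
  rintro A ⟨w, c, hA⟩
  rw [SetLike.mem_coe]
  by_cases hw : w = 0
  · have : A = 1 := by
      apply Subtype.ext
      rw [hA, hw]
      simp [Cfsg.sympTransvection]
    rw [this]
    exact one_mem _
  · have hu : w ∘ e4 ≠ 0 := by
      intro h
      apply hw
      funext i
      have := congrFun h (e4.symm i)
      simpa using this
    obtain ⟨g, hg, hgu⟩ := P_all _ hu
    rw [re_mulVec] at hgu
    have hgw : (g : Matrix I4 I4 F) *ᵥ w = Pi.single (Sum.inl 0) 1 := by
      funext i
      have := congrFun hgu (e4.symm i)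
      simp only [Function.comp, Equiv.apply_symm_apply] at this
      rw [this]
      rcases i with i | i <;> fin_cases i <;> simp [e4]
    have hconj : g * A = rootElt 7 c * g := by
      apply Subtype.ext
      show (g : Matrix I4 I4 F) * (A : Matrix I4 I4 F) = (rootElt 7 c : Matrix I4 I4 F) * (g : Matrix I4 I4 F)
      rw [hA, ← transv_single, ← hgw, Matrix.ext_iff_mulVec]
      intro x
      rw [← mulVec_mulVec, ← mulVec_mulVec, Cfsg.Agent.Lib.Helper17.sympTransvection_mulVec,
        Cfsg.Agent.Lib.Helper17.sympTransvection_mulVec, Cfsg.Agent.Lib.Helper17.sp_sympForm,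
        Matrix.mulVec_add, Matrix.mulVec_smul]
    have : A = g⁻¹ * rootElt 7 c * g := by
      rw [mul_assoc, ← hconj, inv_mul_cancel_left]
    rw [this]
    exact mul_mem (mul_mem (inv_mem hg) (rootElt_mem _ _)) hg

end Cfsg.Agent.Lib.Helper6.B2
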