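import Mathlib
import Cfsg.Agent.Lib.Helper6.B2Gen
import Cfsg.Prelude.Def_Classical

/-!
The Chevalley group of type `B₂` over any field is isomorphic to `PSp₄(F)`.
-/

namespace Cfsg.Agent.Lib.Helper6.B2
open Matrix Cfsg.Agent.Lib.Helper6.Klein5 Cfsg.Lie

variable {F : Type*} [Field F]

theorem re_mul_inv (g : Matrix.symplecticGroup (Fin 2) F) :
    re (g : Matrix I4 I4 F) * re ((g⁻¹ : Matrix.symplecticGroup (Fin 2) F) : Matrix I4 I4 F) = 1 := by
  rw [← re_mul, ← re_one]
  congr 1
  exact congrArg Subtype.val (mul_inv_cancel g)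

theorem re_inv_mul (g : Matrix.symplecticGroup (Fin 2) F) :
    re ((g⁻¹ : Matrix.symplecticGroup (Fin 2) F) : Matrix I4 I4 F) * re (g : Matrix I4 I4 F) = 1 := by
  rw [← re_mul, ← re_one]
  congr 1
  exact congrArg Subtype.val (inv_mul_cancel g)

theorem JJ_transpose : (JJ : Matrix (Fin 4) (Fin 4) F)ᵀ = -JJ := by
  ext i j
  fin_cases i <;> fin_cases j <;> simp [JJ]

theorem conj_mem (g : Matrix.symplecticGroup (Fin 2) F) (v : Idx → F) :
    (re (g : Matrix I4 I4 F) * (X v * re ((g⁻¹ : Matrix.symplecticGroup (Fin 2) F) : Matrix I4 I4 F))) * JJ +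
      JJ * (re (g : Matrix I4 I4 F) * (X v * re ((g⁻¹ : Matrix.symplecticGroup (Fin 2) F) : Matrix I4 I4 F)))ᵀ = 0 := by
  set A := re (g : Matrix I4 I4 F)
  set A' := re ((g⁻¹ : Matrix.symplecticGroup (Fin 2) F) : Matrix I4 I4 F)
  have hA : A * JJ * Aᵀ = JJ := (mem_symp_iff _).1 g.2
  have h1 : A' * JJ = JJ * Aᵀ := by
    calc A' * JJ = A' * (A * JJ * Aᵀ) := by rw [hA]
      _ = (A' * A) * JJ * Aᵀ := by simp only [Matrix.mul_assoc]
      _ = JJ * Aᵀ := by rw [re_inv_mul, Matrix.one_mul]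
  have h2 : JJ * A'ᵀ = A * JJ := by
    have := congrArg Matrix.transpose h1
    rw [Matrix.transpose_mul, Matrix.transpose_mul, Matrix.transpose_transpose, JJ_transpose] at this
    simpa using this
  have h3 := X_JJ v
  calc A * (X v * A') * JJ + JJ * (A * (X v * A'))ᵀ
      = A * X v * (A' * JJ) + (JJ * A'ᵀ) * (X v)ᵀ * Aᵀ := by
        rw [Matrix.transpose_mul, Matrix.transpose_mul]
        simp only [Matrix.mul_assoc]
    _ = A * (X v * JJ + JJ * (X v)ᵀ) * Aᵀ := by
        rw [h1, h2]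
        simp only [Matrix.mul_assoc, Matrix.mul_add, Matrix.add_mul]
    _ = 0 := by rw [h3]; simp

noncomputable def AdM (g : Matrix.symplecticGroup (Fin 2) F) : Matrix Idx Idx F :=
  LinearMap.toMatrix' (col ∘ₗ LinearMap.mulLeft F (re (g : Matrix I4 I4 F)) ∘ₗ
    LinearMap.mulRight F (re ((g⁻¹ : Matrix.symplecticGroup (Fin 2) F) : Matrix I4 I4 F)) ∘ₗ Xl)

theorem X_AdM (g : Matrix.symplecticGroup (Fin 2) F) (v : Idx → F) :
    X (AdM g *ᵥ v) = re (g : Matrix I4 I4 F) * X v *
      re ((g⁻¹ : Matrix.symplecticGroup (Fin 2) F) : Matrix I4 I4 F) := by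
  rw [AdM, LinearMap.toMatrix'_mulVec]
  show X (co (re (g : Matrix I4 I4 F) * (X v *
      re ((g⁻¹ : Matrix.symplecticGroup (Fin 2) F) : Matrix I4 I4 F)))) = _
  rw [X_co_of _ (conj_mem g v), Matrix.mul_assoc]

theorem ext_mulVec {A C : Matrix Idx Idx F} (h : ∀ v, A *ᵥ v = C *ᵥ v) : A = C := by
  ext i j
  simpa using congrFun (h (Pi.single j 1)) i

noncomputable def AdHom : Matrix.symplecticGroup (Fin 2) F →* Matrix Idx Idx F where
  toFun := AdM
  map_one' := by
    apply ext_mulVec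
    intro v
    apply X_inj
    rw [X_AdM, inv_one]
    show re (1 : Matrix I4 I4 F) * X v * re (1 : Matrix I4 I4 F) = _
    rw [re_one]
    simp
  map_mul' g h := by
    apply ext_mulVec
    intro v
    apply X_inj
    rw [← mulVec_mulVec, X_AdM, X_AdM, X_AdM, _root_.mul_inv_rev]
    show re ((g : Matrix I4 I4 F) * (h : Matrix I4 I4 F)) * X v *
      re (((h⁻¹ : Matrix.symplecticGroup (Fin 2) F) : Matrix I4 I4 F) *
        ((g⁻¹ : Matrix.symplecticGroup (Fin 2) F) : Matrix I4 I4 F)) = _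
    rw [re_mul, re_mul]
    simp only [Matrix.mul_assoc]

theorem AdM_rootElt (r : Fin 8) (t : F) : AdM (rootElt r t) = xM F r t := by
  apply ext_mulVec
  intro v
  apply X_inj
  rw [X_AdM, X_xM, rootElt_inv, re_rootElt, re_rootElt]

noncomputable def AdGL : Matrix.symplecticGroup (Fin 2) F →* GL Idx F := AdHom.toHomUnits

theorem AdGL_coe (g : Matrix.symplecticGroup (Fin 2) F) :
    ((AdGL g : GL Idx F) : Matrix Idx Idx F) = AdM g := rfl

theorem range_AdGL : (AdGL (F := F)).range = (chevB2.group F : Subgroup (GL Idx F)) := by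
  rw [MonoidHom.range_eq_map, ← K_eq_top, K, MonoidHom.map_closure]
  show _ = Subgroup.closure {g : GL Idx F | ∃ (r : Fin 8) (t : F), (g : Matrix Idx Idx F) = xM F r t}
  congr 1
  ext g
  constructor
  · rintro ⟨_, ⟨r, t, rfl⟩, rfl⟩
    exact ⟨r, t, AdM_rootElt r t⟩
  · rintro ⟨r, t, h⟩
    refine ⟨rootElt r t, ⟨r, t, rfl⟩, ?_⟩
    apply Units.ext
    rw [h, AdGL_coe, AdM_rootElt]

theorem X_eq_sum (v : Idx → F) : X v = ∑ c, v c • (B c : Matrix _ _ F) := by
  have : v = ∑ c, v c • (Pi.single c 1 : Idx → F) := by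
    funext i
    simp [Finset.sum_apply, Pi.single_apply]
  conv_lhs => rw [this]
  show Xl _ = _
  rw [map_sum]
  apply Finset.sum_congr rfl
  intro c _
  rw [map_smul]
  rfl

set_option maxRecDepth 100000 in
theorem idH : (B (.inl 0) : Matrix _ _ ℤ) = B (.inr 5) * B (.inr 2) - B (.inr 2) * B (.inr 5) ∧
    (B (.inl 1) : Matrix _ _ ℤ) = B (.inr 4) * B (.inr 3) - B (.inr 3) * B (.inr 4) := by
  decide +kernel

theorem H0 : (B (.inl 0) : Matrix _ _ F) = B (.inr 5) * B (.inr 2) - B (.inr 2) * B (.inr 5) := by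
  have := congrArg (Int.castRingHom F).mapMatrix idH.1
  rwa [map_sub, map_mul, map_mul, cast_B, cast_B, cast_B] at this

theorem H1 : (B (.inl 1) : Matrix _ _ F) = B (.inr 4) * B (.inr 3) - B (.inr 3) * B (.inr 4) := by
  have := congrArg (Int.castRingHom F).mapMatrix idH.2
  rwa [map_sub, map_mul, map_mul, cast_B, cast_B, cast_B] at this

theorem commute_B_of_center (g : Matrix.symplecticGroup (Fin 2) F)
    (hg : ∀ r : Fin 8, rootElt r 1 * g = g * rootElt r 1) (c : Idx) :
    re (g : Matrix I4 I4 F) * B c = B c * re (g : Matrix I4 I4 F) := by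
  have hr : ∀ r : Fin 8, re (g : Matrix I4 I4 F) * B (.inr r) = B (.inr r) * re (g : Matrix I4 I4 F) := by
    intro r
    have h1 : re ((rootElt r (1 : F) : Matrix I4 I4 F) * (g : Matrix I4 I4 F)) =
        re ((g : Matrix I4 I4 F) * (rootElt r (1 : F) : Matrix I4 I4 F)) :=
      congrArg (fun x : Matrix.symplecticGroup (Fin 2) F => re (x : Matrix I4 I4 F)) (hg r)
    rw [re_mul, re_mul, re_rootElt, G, one_smul, Matrix.add_mul, Matrix.mul_add, Matrix.one_mul,
      Matrix.mul_one] at h1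
    exact (add_left_cancel h1).symm
  rcases c with i | r
  · fin_cases i
    · show _ * B (.inl 0) = B (.inl 0) * _
      rw [H0, Matrix.mul_sub, Matrix.sub_mul, ← Matrix.mul_assoc, hr, Matrix.mul_assoc, hr,
        ← Matrix.mul_assoc, ← Matrix.mul_assoc, hr, Matrix.mul_assoc _ _ (B (.inr 5)), hr,
        ← Matrix.mul_assoc]
    · show _ * B (.inl 1) = B (.inl 1) * _
      rw [H1, Matrix.mul_sub, Matrix.sub_mul, ← Matrix.mul_assoc, hr, Matrix.mul_assoc, hr,
        ← Matrix.mul_assoc, ← Matrix.mul_assoc, hr, Matrix.mul_assoc _ _ (B (.inr 4)), hr,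
        ← Matrix.mul_assoc]
  · exact hr r

theorem ker_AdGL : (AdGL (F := F)).ker = Subgroup.center (Matrix.symplecticGroup (Fin 2) F) := by
  ext g
  rw [MonoidHom.mem_ker, Subgroup.mem_center_iff]
  constructor
  · intro h
    have h1 : AdM g = 1 := by
      rw [← AdGL_coe, h]
      rfl
    have h2 : ∀ v, re (g : Matrix I4 I4 F) * X v = X v * re (g : Matrix I4 I4 F) := by
      intro v
      have := X_AdM g v
      rw [h1, one_mulVec] at this
      calc re (g : Matrix I4 I4 F) * X v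
          = re (g : Matrix I4 I4 F) * X v * (re ((g⁻¹ : Matrix.symplecticGroup (Fin 2) F) : Matrix I4 I4 F) *
            re (g : Matrix I4 I4 F)) := by rw [re_inv_mul, Matrix.mul_one]
        _ = X v * re (g : Matrix I4 I4 F) := by rw [← Matrix.mul_assoc, ← this]
    have hle : K F ≤ Subgroup.centralizer {g} := by
      rw [K, Subgroup.closure_le]
      rintro _ ⟨r, t, rfl⟩
      rw [SetLike.mem_coe, Subgroup.mem_centralizer_singleton_iff]
      apply Subtype.ext
      apply re_injective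
      show re ((rootElt r t : Matrix I4 I4 F) * (g : Matrix I4 I4 F)) =
        re ((g : Matrix I4 I4 F) * (rootElt r t : Matrix I4 I4 F))
      rw [re_mul, re_mul, re_rootElt, G, Matrix.add_mul, Matrix.mul_add, Matrix.one_mul,
        Matrix.mul_one, Matrix.smul_mul, Matrix.mul_smul, B, h2]
    intro x
    have hx : x ∈ K F := by rw [K_eq_top]; trivial
    have := hle hx
    rw [Subgroup.mem_centralizer_singleton_iff] at this
    exact this
  · intro h
    apply Units.ext
    rw [AdGL_coe]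
    show AdM g = 1
    apply ext_mulVec
    intro v
    apply X_inj
    rw [X_AdM, one_mulVec]
    have h2 : re (g : Matrix I4 I4 F) * X v = X v * re (g : Matrix I4 I4 F) := by
      rw [X_eq_sum, Finset.mul_sum, Finset.sum_mul]
      apply Finset.sum_congr rfl
      intro c _
      rw [Matrix.mul_smul, Matrix.smul_mul, commute_B_of_center g (fun r => h _)]
    rw [h2, Matrix.mul_assoc, re_mul_inv, Matrix.mul_one]

/-- The Chevalley group of type `B₂` is `PSp₄(F)`, for every field. -/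
theorem chevB2_equiv_PSp : Nonempty (↥(chevB2.group F) ≃* Cfsg.PSp 2 F) := by
  have e1 := QuotientGroup.quotientKerEquivRange (AdGL (F := F))
  have e2 := QuotientGroup.quotientMulEquivOfEq (ker_AdGL (F := F))
  have e3 : ↥(AdGL (F := F)).range ≃* ↥(chevB2.group F : Subgroup (GL Idx F)) :=
    MulEquiv.subgroupCongr range_AdGL
  exact ⟨(e2.symm.trans (e1.trans e3)).symm⟩

end Cfsg.Agent.Lib.Helper6.B2
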