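import Mathlib

set_option autoImplicit false

namespace Cfsg.Agent.Lib.Helper6

variable {G : Type*} [Group G]

theorem closure_comm {S : Set G} (hc : ∀ a ∈ S, ∀ b ∈ S, a * b = b * a) :
    ∀ a ∈ Subgroup.closure S, ∀ b ∈ Subgroup.closure S, a * b = b * a := by
  intro a ha b hb
  exact Subgroup.closure_induction₂ (p := fun x y _ _ => Commute x y)
    (mem := fun x y hx hy => hc x hx y hy) (one_left := fun x _ => Commute.one_left x)
    (one_right := fun x _ => Commute.one_right x)
    (mul_left := fun x y z _ _ _ h1 h2 => h1.mul_left h2)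
    (mul_right := fun y z x _ _ _ h1 h2 => h1.mul_right h2)
    (inv_left := fun x y _ _ h => h.inv_left) (inv_right := fun x y _ _ h => h.inv_right) ha hb

theorem closure_pow_eq_one {S : Set G} (p : ℕ) (hc : ∀ a ∈ S, ∀ b ∈ S, a * b = b * a)
    (hp : ∀ a ∈ S, a ^ p = 1) : ∀ a ∈ Subgroup.closure S, a ^ p = 1 := by
  intro a ha
  exact Subgroup.closure_induction (p := fun x _ => x ^ p = 1) (mem := fun x hx => hp x hx)
    (one := one_pow p)
    (mul := fun x y hx hy h1 h2 => by
      rw [(show Commute x y from closure_comm hc x hx y hy).mul_pow, h1, h2, one_mul])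
    (inv := fun x _ h => by rw [inv_pow, h, inv_one]) ha

theorem isPGroup_of_pow_eq_one (p : ℕ) (K : Subgroup G) (hK : ∀ k ∈ K, k ^ p = 1) :
    IsPGroup p K := by
  intro g
  refine ⟨1, ?_⟩
  apply Subtype.ext
  rw [pow_one]
  exact hK g.1 g.2

/-- a proper subgroup of a finite group of exponent `p` has index divisible by `p` -/
theorem mul_card_dvd_of_lt [Finite G] (p : ℕ) [hp : Fact p.Prime] {H K : Subgroup G} (hHK : H < K)
    (hK : ∀ k ∈ K, k ^ p = 1) : p * Nat.card H ∣ Nat.card K := by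
  obtain ⟨n, hn⟩ := (isPGroup_of_pow_eq_one p K hK).exists_card_eq
  have h1 : Nat.card H ∣ p ^ n := hn ▸ Subgroup.card_dvd_of_le hHK.le
  obtain ⟨m, hmn, hm⟩ := (Nat.dvd_prime_pow hp.out).mp h1
  have hne : m ≠ n := by
    rintro rfl
    exact hHK.ne (Subgroup.eq_of_le_of_card_ge hHK.le (by rw [hn, hm]))
  rw [hm, hn, ← pow_succ']
  exact pow_dvd_pow p (by omega)

theorem exists_le_card_eq [Finite G] (p : ℕ) [hp : Fact p.Prime] (A : Subgroup G) (k : ℕ)
    (hk : p ^ k ∣ Nat.card A) : ∃ E : Subgroup G, E ≤ A ∧ Nat.card E = p ^ k := by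
  obtain ⟨K, hK⟩ := Sylow.exists_subgroup_card_pow_prime (G := A) p hk
  exact ⟨K.map A.subtype, Subgroup.map_subtype_le K, by
    rw [Subgroup.card_map_of_injective A.subtype_injective, hK]⟩

end Cfsg.Agent.Lib.Helper6
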