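import Mathlib
import Cfsg.Prelude.Def_Classical
import Cfsg.Agent.Lib.Helper6.PermRep

/-!
The heart of the permutation module of `S_8` over `ZMod 2`, in coordinates adapted to the
hyperbolic quadratic form `x₁y₁ + x₂y₂ + x₃y₃`.
-/

namespace Cfsg.Agent.Lib.Helper6.Heart8
open Matrix Cfsg.Agent.Lib.Helper6

def G8 : Matrix (Fin 3 ⊕ Fin 3) (Fin 8) (ZMod 2) :=
  Matrix.of (Sum.elim
    ![![1, 1, 1, 0, 1, 0, 0, 0], ![0, 1, 0, 1, 1, 1, 0, 0], ![1, 1, 0, 0, 0, 1, 1, 0]]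
    ![![1, 1, 1, 1, 0, 0, 0, 0], ![1, 0, 0, 1, 1, 1, 0, 0], ![0, 0, 1, 1, 1, 0, 1, 0]])

def S8 : Matrix (Fin 8) (Fin 3 ⊕ Fin 3) (ZMod 2) :=
  Matrix.of fun k => Sum.elim
    (fun i => (![![1, 1, 1, 1, 0, 0, 0, 0], ![1, 0, 0, 1, 1, 1, 0, 0], ![0, 0, 1, 1, 1, 0, 1, 0]] :
      Fin 3 → Fin 8 → ZMod 2) i k)
    (fun i => (![![1, 1, 1, 0, 1, 0, 0, 0], ![0, 1, 0, 1, 1, 1, 0, 0], ![1, 1, 0, 0, 0, 1, 1, 0]] :
      Fin 3 → Fin 8 → ZMod 2) i k)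

def a8 : Fin 8 → ZMod 2 := ![1, 1, 1, 1, 1, 1, 1, 0]
def b8 : Fin 8 → ZMod 2 := ![0, 0, 0, 0, 0, 0, 0, 1]

theorem hG : ∀ u, ∑ k, G8 u k = 0 := by decide +kernel
theorem hS : ∀ u, ∑ k, S8 k u = 0 := by decide +kernel
theorem hGS : G8 * S8 = 1 := by decide +kernel
theorem hSG : ∀ k l, (S8 * G8) k l = (if k = l then 1 else 0) + a8 l + b8 k := by decide +kernel

/-- the representation -/
def rep8 : Equiv.Perm (Fin 8) →* Matrix (Fin 3 ⊕ Fin 3) (Fin 3 ⊕ Fin 3) (ZMod 2) :=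
  PermRep.hom G8 S8 a8 b8 hG hS hGS hSG

theorem rep8_apply (σ : Equiv.Perm (Fin 8)) : rep8 σ = PermRep.mat G8 S8 σ := rfl

set_option maxRecDepth 100000 in
theorem sep : ∀ i a b c : Fin 8,
    ((fun u => G8 u a) - (fun u => G8 u b) : Fin 3 ⊕ Fin 3 → ZMod 2) =
      (fun u => G8 u i) - (fun u => G8 u (i + 1)) →
    ((fun u => G8 u a) - (fun u => G8 u c) : Fin 3 ⊕ Fin 3 → ZMod 2) =
      (fun u => G8 u i) - (fun u => G8 u (i + 2)) → a = i := by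
  decide +kernel

theorem rep8_injective : Function.Injective rep8 := by
  rw [injective_iff_map_eq_one]
  intro σ h
  ext i
  have h1 := PermRep.mat_mulVec_sub G8 S8 a8 b8 hG hSG σ i (i + 1)
  have h2 := PermRep.mat_mulVec_sub G8 S8 a8 b8 hG hSG σ i (i + 2)
  rw [← rep8_apply, h, one_mulVec] at h1 h2
  rw [sep i (σ i) (σ (i + 1)) (σ (i + 2)) h1.symm h2.symm]
  rfl

set_option maxRecDepth 100000 in
theorem swap_pres : ∀ (a b : Fin 8) (v : Fin 3 ⊕ Fin 3 → ZMod 2),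
    Cfsg.quadFormPlus 3 (ZMod 2) (PermRep.mat G8 S8 (Equiv.swap a b) *ᵥ v) =
      Cfsg.quadFormPlus 3 (ZMod 2) v := by
  decide +kernel

theorem rep8_pres (σ : Equiv.Perm (Fin 8)) (v : Fin 3 ⊕ Fin 3 → ZMod 2) :
    Cfsg.quadFormPlus 3 (ZMod 2) (rep8 σ *ᵥ v) = Cfsg.quadFormPlus 3 (ZMod 2) v := by
  induction σ using Equiv.Perm.swap_induction_on generalizing v with
  | one => simp
  | swap_mul f x y _ ih =>
    rw [map_mul, ← mulVec_mulVec, rep8_apply (Equiv.swap x y), swap_pres, ih]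

end Cfsg.Agent.Lib.Helper6.Heart8
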