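import Mathlib
import Cfsg.Prelude.Def_Classical
import Cfsg.Agent.Lib.Helper6.Klein5
import Cfsg.Agent.Lib.Helper6.IsomTransport
import Cfsg.Agent.Lib.Helper6.B2Ad2

/-!
The 5-dimensional orthogonal representation of `Sp₄(F)`, over an arbitrary field.
-/

namespace Cfsg.Agent.Lib.Helper6.K5
open Matrix Cfsg.Agent.Lib.Helper6.Klein Cfsg.Agent.Lib.Helper6.Klein5

variable {F : Type*} [Field F]

theorem polar_vJ (w : I6 → F) :
    Cfsg.quadFormPlus 3 F (vJ + w) - Cfsg.quadFormPlus 3 F vJ - Cfsg.quadFormPlus 3 F w =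
      w (.inl 1) - w (.inr 1) := by
  simp [Cfsg.quadFormPlus, vJ, Fin.sum_univ_three]
  ring

theorem MM_pres_symp {A : Matrix I4 I4 F} (hA : A ∈ Matrix.symplecticGroup (Fin 2) F)
    (w : I6 → F) :
    Cfsg.quadFormPlus 3 F (MM (re A) *ᵥ w) = Cfsg.quadFormPlus 3 F w := by
  have hdet : (re A).det = 1 := by
    rw [det_re]
    exact SymplecticGroup.det_eq_one hA
  exact MM_pres ⟨re A, hdet⟩ w

theorem MM_diff {A : Matrix I4 I4 F}
    (hA : A ∈ Matrix.symplecticGroup (Fin 2) F) (w : I6 → F) :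
    (MM (re A) *ᵥ w) (.inl 1) - (MM (re A) *ᵥ w) (.inr 1) = w (.inl 1) - w (.inr 1) := by
  rw [← polar_vJ, ← polar_vJ w, MM_pres_symp hA]
  have : vJ + MM (re A) *ᵥ w = MM (re A) *ᵥ (vJ + w) := by
    rw [Matrix.mulVec_add, MM_vJ hA]
  rw [this, MM_pres_symp hA]

theorem emb_M5 {A : Matrix I4 I4 F}
    (hA : A ∈ Matrix.symplecticGroup (Fin 2) F) (v : I5 → F) :
    emb (M5 A *ᵥ v) = MM (re A) *ᵥ emb v := by
  rw [M5, LinearMap.toMatrix'_mulVec]
  simp only [LinearMap.comp_apply, Matrix.toLin'_apply]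
  apply emb_prj
  have := MM_diff hA (emb v)
  have h0 : (emb v) (.inl 1) - (emb v) (.inr 1) = 0 := by simp [emb]
  rw [h0] at this
  exact sub_eq_zero.1 this

theorem X_emb_M5 {A : Matrix I4 I4 F}
    (hA : A ∈ Matrix.symplecticGroup (Fin 2) F) (v : I5 → F) :
    X (emb (M5 A *ᵥ v)) = re A * X (emb v) * (re A)ᵀ := by
  rw [emb_M5 hA, X_MM]

theorem M5_one : M5 (1 : Matrix I4 I4 F) = 1 := by
  apply ext_mulVec5
  intro v
  apply emb_injective
  rw [emb_M5 (one_mem _), re_one, MM_one]
  simp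

theorem M5_mul {A B : Matrix I4 I4 F}
    (hA : A ∈ Matrix.symplecticGroup (Fin 2) F) (hB : B ∈ Matrix.symplecticGroup (Fin 2) F) :
    M5 (A * B) = M5 A * M5 B := by
  apply ext_mulVec5
  intro v
  apply emb_injective
  rw [emb_M5 (mul_mem hA hB), ← mulVec_mulVec, emb_M5 hA, emb_M5 hB, re_mul, MM_mul,
    mulVec_mulVec]

theorem M5_pres {A : Matrix I4 I4 F}
    (hA : A ∈ Matrix.symplecticGroup (Fin 2) F) (v : I5 → F) :
    Cfsg.quadFormOdd 2 F (M5 A *ᵥ v) = Cfsg.quadFormOdd 2 F v := by
  rw [← Q_emb, ← Q_emb, emb_M5 hA]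
  exact MM_pres_symp hA (emb v)

theorem minor_of_fix (g : Matrix (Fin 4) (Fin 4) F) (i j : Fin 4)
    (h1 : Matrix.single i j (1 : F) - Matrix.single j i 1 =
      g * (Matrix.single i j (1 : F) - Matrix.single j i 1) * gᵀ)
    (k l : Fin 4) : g k i * g l j - g k j * g l i =
      (if k = i ∧ l = j then 1 else 0) - (if k = j ∧ l = i then 1 else 0) := by
  have h2 := congrFun (congrFun h1 k) l
  rw [Matrix.mul_sub, Matrix.sub_mul, Matrix.sub_apply, Matrix.sub_apply] at h2
  simp only [Matrix.mul_apply, Matrix.single_apply, Matrix.transpose_apply, mul_ite, mul_one,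
    mul_zero, ite_and, Finset.sum_ite_eq, Finset.mem_univ, if_true, ite_mul, zero_mul,
    Finset.sum_ite_eq'] at h2
  rw [← h2]
  simp only [ite_and, eq_comm]

theorem exists_emb (i j : Fin 4) (h : (i.val + j.val) % 2 = 1) :
    ∃ v : I5 → F, X (emb v) = Matrix.single i j 1 - Matrix.single j i 1 := by
  have hij : i ≠ j := by
    rintro rfl
    omega
  refine ⟨prj (co (Matrix.single i j (1 : F) - Matrix.single j i 1)), ?_⟩
  rw [emb_prj]
  · apply X_co_of
    · intro m
      simp only [Matrix.sub_apply, Matrix.single_apply]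
      rw [if_neg (fun hh => hij (hh.1.trans hh.2.symm)),
        if_neg (fun hh => hij (hh.2.trans hh.1.symm)), sub_zero]
    · intro m n
      simp [Matrix.single_apply, and_comm]
  · revert h
    fin_cases i <;> fin_cases j <;> simp [co, Matrix.single_apply]

theorem exists_nbr : ∀ i k : Fin 4, k ≠ i → ∃ j : Fin 4, (i.val + j.val) % 2 = 1 ∧ j ≠ k := by
  decide

theorem eq_one_or_neg_one5 {A : Matrix I4 I4 F}
    (hA : A ∈ Matrix.symplecticGroup (Fin 2) F) (h : M5 A = 1) : A = 1 ∨ A = -1 := by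
  set g := re A with hg
  have hfix : ∀ v : I5 → F, X (emb v) = g * X (emb v) * gᵀ := by
    intro v
    rw [← X_emb_M5 hA, h, one_mulVec]
  have hmin : ∀ i j : Fin 4, (i.val + j.val) % 2 = 1 → ∀ k l : Fin 4,
      g k i * g l j - g k j * g l i =
      (if k = i ∧ l = j then 1 else 0) - (if k = j ∧ l = i then 1 else 0) := by
    intro i j hij
    obtain ⟨v, hv⟩ := exists_emb (F := F) i j hij
    apply minor_of_fix
    rw [← hv]
    exact hfix v
  have hoff : ∀ k i, k ≠ i → g k i = 0 := by
    intro k i hki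
    obtain ⟨j, hij, hjk⟩ := exists_nbr i k hki
    have hji : j ≠ i := by
      rintro rfl
      omega
    have m1 := hmin i j hij i j
    have m2 := hmin i j hij k j
    have m3 := hmin i j hij k i
    simp [hki, hji, hji.symm, hjk.symm] at m1 m2 m3
    linear_combination (-(g k i)) * m1 + g i i * m2 - g j i * m3
  have hdiag : ∀ i j : Fin 4, (i.val + j.val) % 2 = 1 → g i i * g j j = 1 := by
    intro i j hij
    have hji : j ≠ i := by
      rintro rfl
      omega
    have m1 := hmin i j hij i j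
    simp [hji, hji.symm, hoff i j hji.symm] at m1
    exact m1
  have d01 := hdiag 0 1 (by decide)
  have d12 := hdiag 1 2 (by decide)
  have d23 := hdiag 2 3 (by decide)
  have d02 : g 0 0 * g 2 2 = 1 := by
    have h1 := congrFun (congrFun (hfix (Pi.single (.inl ()) 1)) 0) 2
    simp only [Matrix.mul_apply, Fin.sum_univ_four, Matrix.transpose_apply] at h1
    simp [X, emb, hoff 0 1 (by decide), hoff 0 2 (by decide), hoff 0 3 (by decide),
      hoff 2 0 (by decide), hoff 2 1 (by decide), hoff 2 3 (by decide)] at h1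
    exact h1.symm
  have h1ne : g 1 1 ≠ 0 := by
    intro h0
    rw [h0, mul_zero] at d01
    exact zero_ne_one d01
  have h2ne : g 2 2 ≠ 0 := by
    intro h0
    rw [h0, mul_zero] at d12
    exact zero_ne_one d12
  have e20 : g 2 2 = g 0 0 := by
    apply mul_left_cancel₀ h1ne
    rw [d12, mul_comm, d01]
  have e10 : g 1 1 = g 0 0 := by
    apply mul_right_cancel₀ h2ne
    rw [d12, d02]
  have e31 : g 3 3 = g 0 0 := by
    apply mul_left_cancel₀ h2ne
    rw [d23, mul_comm, d02]
  have hall : ∀ i, g i i = g 0 0 := by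
    intro i
    fin_cases i
    · rfl
    · exact e10
    · exact e20
    · exact e31
  have hsq : g 0 0 * g 0 0 = 1 := by
    rw [e20] at d02
    exact d02
  have h01 : (g 0 0 - 1) * (g 0 0 + 1) = 0 := by linear_combination hsq
  rcases mul_eq_zero.1 h01 with h2 | h2
  · left
    apply re_injective
    rw [re_one, ← hg]
    ext i j
    by_cases hij : i = j
    · subst hij
      rw [hall, Matrix.one_apply_eq]
      linear_combination h2
    · rw [hoff i j hij, Matrix.one_apply_ne hij]
  · right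
    apply re_injective
    rw [re_neg, re_one, ← hg]
    ext i j
    by_cases hij : i = j
    · subst hij
      rw [hall, Matrix.neg_apply, Matrix.one_apply_eq]
      linear_combination h2
    · rw [hoff i j hij, Matrix.neg_apply, Matrix.one_apply_ne hij, neg_zero]

/-- the representation as a monoid hom to matrices -/
noncomputable def rho0 (F : Type*) [Field F] :
    Matrix.symplecticGroup (Fin 2) F →* Matrix I5 I5 F where
  toFun g := M5 (g : Matrix I4 I4 F)
  map_one' := M5_one
  map_mul' g h := M5_mul g.2 h.2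

/-- the representation `Sp₄(F) → O₅(F)` -/
noncomputable def rho (F : Type*) [Field F] : Matrix.symplecticGroup (Fin 2) F →*
    Cfsg.isometryGroup F (Cfsg.quadFormOdd 2 F) :=
  homIsometry (RingEquiv.refl F) (Cfsg.quadFormOdd 2 F) (Cfsg.quadFormOdd 2 F)
    (fun _ => rfl) (rho0 F) (fun g v => M5_pres g.2 v)

theorem rho_coe (g : Matrix.symplecticGroup (Fin 2) F) :
    ((rho F g : Matrix.GeneralLinearGroup I5 F) : Matrix I5 I5 F) = M5 (g : Matrix I4 I4 F) := rfl

end Cfsg.Agent.Lib.Helper6.K5
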