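import Mathlib
import Cfsg.Agent.Lib.Helper6.K5a

/-!
Explicit elements of `Sp₄(F)` and their action on the 5-dimensional orthogonal space.
-/

namespace Cfsg.Agent.Lib.Helper6.K5
open Matrix Cfsg.Agent.Lib.Helper6.Klein Cfsg.Agent.Lib.Helper6.Klein5

variable {F : Type*} [Field F]

/-- the vector with coordinates `z; x₁, x₂; y₁, y₂` -/
def mk5 (z x1 x2 y1 y2 : F) : I5 → F := Sum.elim (fun _ => z) (Sum.elim ![x1, x2] ![y1, y2])

theorem mk5_eta (v : I5 → F) : v = mk5 (v (.inl ())) (v (.inr (.inl 0))) (v (.inr (.inl 1)))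
    (v (.inr (.inr 0))) (v (.inr (.inr 1))) := by
  funext r
  rcases r with r | r | r
  · rfl
  · fin_cases r <;> rfl
  · fin_cases r <;> rfl

theorem Q_mk5 (z x1 x2 y1 y2 : F) :
    Cfsg.quadFormOdd 2 F (mk5 z x1 x2 y1 y2) = z ^ 2 + x1 * y1 + x2 * y2 := by
  simp [Cfsg.quadFormOdd, mk5, Fin.sum_univ_two]
  ring

theorem M5_mulVec (A : Matrix I4 I4 F) (v : I5 → F) :
    M5 A *ᵥ v = prj (co (re A * (X (emb v) * (re A)ᵀ))) := by
  rw [M5, LinearMap.toMatrix'_mulVec]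
  simp only [LinearMap.comp_apply, Matrix.toLin'_apply]
  rw [MM, LinearMap.toMatrix'_mulVec, TT_apply]

theorem prj_co (Y : Matrix (Fin 4) (Fin 4) F) :
    prj (co Y) = mk5 (Y 0 2) (Y 0 1) (Y 0 3) (Y 2 3) (Y 1 2) := by
  funext r
  rcases r with r | r | r
  · simp [prj, co, mk5]
  · fin_cases r <;> simp [prj, co, mk5]
  · fin_cases r <;> simp [prj, co, mk5]

/-- element of `Sp₄` from a `4 × 4` matrix -/
def sp (M : Matrix (Fin 4) (Fin 4) F) (h : M * B2.JJ * Mᵀ = B2.JJ) :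
    Matrix.symplecticGroup (Fin 2) F :=
  ⟨B2.un M, by rw [B2.mem_symp_iff, B2.re_un]; exact h⟩

theorem rho_sp_mulVec (M : Matrix (Fin 4) (Fin 4) F) (h : M * B2.JJ * Mᵀ = B2.JJ) (v : I5 → F) :
    ((rho F (sp M h) : Matrix.GeneralLinearGroup I5 F) : Matrix I5 I5 F) *ᵥ v =
      prj (co (M * (X (emb v) * Mᵀ))) := by
  rw [rho_coe, M5_mulVec]
  show prj (co (re (B2.un M) * (X (emb v) * (re (B2.un M))ᵀ))) = _
  rw [B2.re_un]

def Up (a b c : F) : Matrix (Fin 4) (Fin 4) F := !![1, 0, a, b; 0, 1, b, c; 0, 0, 1, 0; 0, 0, 0, 1]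
def Um (a b c : F) : Matrix (Fin 4) (Fin 4) F := !![1, 0, 0, 0; 0, 1, 0, 0; a, b, 1, 0; b, c, 0, 1]
def Lp (t : F) : Matrix (Fin 4) (Fin 4) F := !![1, t, 0, 0; 0, 1, 0, 0; 0, 0, 1, 0; 0, 0, -t, 1]
def Lm (t : F) : Matrix (Fin 4) (Fin 4) F := !![1, 0, 0, 0; t, 1, 0, 0; 0, 0, 1, -t; 0, 0, 0, 1]

theorem Up_symp (a b c : F) : Up a b c * B2.JJ * (Up a b c)ᵀ = B2.JJ := by
  ext i j
  simp only [Matrix.mul_apply, Fin.sum_univ_four, Matrix.transpose_apply]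
  fin_cases i <;> fin_cases j <;> simp [Up, B2.JJ]

theorem Um_symp (a b c : F) : Um a b c * B2.JJ * (Um a b c)ᵀ = B2.JJ := by
  ext i j
  simp only [Matrix.mul_apply, Fin.sum_univ_four, Matrix.transpose_apply]
  fin_cases i <;> fin_cases j <;> simp [Um, B2.JJ]

theorem Lp_symp (t : F) : Lp t * B2.JJ * (Lp t)ᵀ = B2.JJ := by
  ext i j
  simp only [Matrix.mul_apply, Fin.sum_univ_four, Matrix.transpose_apply]
  fin_cases i <;> fin_cases j <;> simp [Lp, B2.JJ]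

theorem Lm_symp (t : F) : Lm t * B2.JJ * (Lm t)ᵀ = B2.JJ := by
  ext i j
  simp only [Matrix.mul_apply, Fin.sum_univ_four, Matrix.transpose_apply]
  fin_cases i <;> fin_cases j <;> simp [Lm, B2.JJ]

theorem act_Up (a b c z x1 x2 y1 y2 : F) :
    prj (co (Up a b c * (X (emb (mk5 z x1 x2 y1 y2)) * (Up a b c)ᵀ))) =
      mk5 (z - b * y1) (x1 + c * x2 - a * y2 + 2 * b * z + (a * c - b ^ 2) * y1) (x2 + a * y1) y1
        (y2 - c * y1) := by
  rw [prj_co]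
  congr 1 <;> simp only [Matrix.mul_apply, Fin.sum_univ_four, Matrix.transpose_apply] <;>
    simp [X, emb, mk5, Up] <;> ring

theorem act_Um (a b c z x1 x2 y1 y2 : F) :
    prj (co (Um a b c * (X (emb (mk5 z x1 x2 y1 y2)) * (Um a b c)ᵀ))) =
      mk5 (z + b * x1) x1 (x2 + c * x1) (y1 + (a * c - b ^ 2) * x1 + a * x2 - c * y2 - 2 * b * z)
        (y2 - a * x1) := by
  rw [prj_co]
  congr 1 <;> simp only [Matrix.mul_apply, Fin.sum_univ_four, Matrix.transpose_apply] <;>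
    simp [X, emb, mk5, Um] <;> ring

theorem act_Lp (t z x1 x2 y1 y2 : F) :
    prj (co (Lp t * (X (emb (mk5 z x1 x2 y1 y2)) * (Lp t)ᵀ))) =
      mk5 (z + t * y2) x1 (x2 - 2 * t * z - t ^ 2 * y2) y1 y2 := by
  rw [prj_co]
  congr 1 <;> simp only [Matrix.mul_apply, Fin.sum_univ_four, Matrix.transpose_apply] <;>
    simp [X, emb, mk5, Lp] <;> ring

theorem act_Lm (t z x1 x2 y1 y2 : F) :
    prj (co (Lm t * (X (emb (mk5 z x1 x2 y1 y2)) * (Lm t)ᵀ))) =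
      mk5 (z - t * x2) x1 x2 y1 (y2 + 2 * t * z - t ^ 2 * x2) := by
  rw [prj_co]
  congr 1 <;> simp only [Matrix.mul_apply, Fin.sum_univ_four, Matrix.transpose_apply] <;>
    simp [X, emb, mk5, Lm] <;> ring

end Cfsg.Agent.Lib.Helper6.K5
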