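import Mathlib
import Cfsg.Agent.Lib.Helper6.K5b

/-!
Every isometry of `x₀² + x₁y₁ + x₂y₂` is the product of an element of the image of `Sp₄(F)` and a
diagonal isometry.
-/

namespace Cfsg.Agent.Lib.Helper6.K5
open Matrix Cfsg.Agent.Lib.Helper6.Klein Cfsg.Agent.Lib.Helper6.Klein5

variable {F : Type*} [Field F]

abbrev O5 (F : Type*) [Field F] := Cfsg.isometryGroup F (Cfsg.quadFormOdd 2 F)

/-- the underlying matrix -/
def mat (g : O5 F) : Matrix I5 I5 F := ((g : Matrix.GeneralLinearGroup I5 F) : Matrix I5 I5 F)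

theorem mat_mul (g h : O5 F) : mat (g * h) = mat g * mat h := rfl

theorem mat_injective : Function.Injective (mat : O5 F → Matrix I5 I5 F) := by
  intro g h e
  exact Subtype.ext (Units.ext e)

theorem mat_pres (g : O5 F) (v : I5 → F) :
    Cfsg.quadFormOdd 2 F (mat g *ᵥ v) = Cfsg.quadFormOdd 2 F v :=
  (mem_isometryGroup_iff _ _).1 g.2 v

/-- the polar form -/
def Bf (u v : I5 → F) : F :=
  Cfsg.quadFormOdd 2 F (u + v) - Cfsg.quadFormOdd 2 F u - Cfsg.quadFormOdd 2 F v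

theorem mat_Bf (g : O5 F) (u v : I5 → F) : Bf (mat g *ᵥ u) (mat g *ᵥ v) = Bf u v := by
  rw [Bf, Bf, ← Matrix.mulVec_add, mat_pres, mat_pres, mat_pres]

theorem mk5_add (z x1 x2 y1 y2 z' x1' x2' y1' y2' : F) :
    mk5 z x1 x2 y1 y2 + mk5 z' x1' x2' y1' y2' =
      mk5 (z + z') (x1 + x1') (x2 + x2') (y1 + y1') (y2 + y2') := by
  funext r
  rcases r with r | r | r
  · rfl
  · fin_cases r <;> rfl
  · fin_cases r <;> rfl

theorem mk5_smul (k z x1 x2 y1 y2 : F) :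
    k • mk5 z x1 x2 y1 y2 = mk5 (k * z) (k * x1) (k * x2) (k * y1) (k * y2) := by
  funext r
  rcases r with r | r | r
  · rfl
  · fin_cases r <;> rfl
  · fin_cases r <;> rfl

theorem Bf_mk5 (z x1 x2 y1 y2 z' x1' x2' y1' y2' : F) :
    Bf (mk5 z x1 x2 y1 y2) (mk5 z' x1' x2' y1' y2') =
      2 * z * z' + x1 * y1' + y1 * x1' + x2 * y2' + y2 * x2' := by
  rw [Bf, mk5_add, Q_mk5, Q_mk5, Q_mk5]
  ring

theorem step_mulVec (M : Matrix (Fin 4) (Fin 4) F) (h : M * B2.JJ * Mᵀ = B2.JJ) (g : O5 F)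
    (e : I5 → F) :
    mat (rho F (sp M h) * g) *ᵥ e = prj (co (M * (X (emb (mat g *ᵥ e)) * Mᵀ))) := by
  rw [mat_mul, ← mulVec_mulVec]
  exact rho_sp_mulVec M h _

/-- diagonal isometries -/
def IsD (t : O5 F) : Prop :=
  ∃ ε l m l' m' : F, ε * ε = 1 ∧ l * l' = 1 ∧ m * m' = 1 ∧ ∀ z x1 x2 y1 y2 : F,
    mat t *ᵥ mk5 z x1 x2 y1 y2 = mk5 (ε * z) (l * x1) (m * x2) (l' * y1) (m' * y2)

def Good (g : O5 F) : Prop :=
  ∃ (h : Matrix.symplecticGroup (Fin 2) F) (t : O5 F), IsD t ∧ g = rho F h * t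

theorem Good_step (h : Matrix.symplecticGroup (Fin 2) F) (g : O5 F) (hg : Good (rho F h * g)) :
    Good g := by
  obtain ⟨h', t, ht, e⟩ := hg
  refine ⟨h⁻¹ * h', t, ht, ?_⟩
  rw [map_mul, map_inv, mul_assoc, ← e, inv_mul_cancel_left]

theorem mk5_decomp (z x1 x2 y1 y2 : F) : mk5 z x1 x2 y1 y2 =
    z • mk5 1 0 0 0 0 + x1 • mk5 0 1 0 0 0 + x2 • mk5 0 0 1 0 0 + y1 • mk5 0 0 0 1 0 +
      y2 • mk5 0 0 0 0 1 := by
  simp only [mk5_smul, mk5_add]
  congr 1 <;> ring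

theorem Good_E (g : O5 F) (l1 l2 l3 l4 : F) (h1 : mat g *ᵥ mk5 0 0 0 1 0 = mk5 0 0 0 l1 0)
    (h2 : mat g *ᵥ mk5 0 1 0 0 0 = mk5 0 l2 0 0 0)
    (h3 : mat g *ᵥ mk5 0 0 0 0 1 = mk5 0 0 0 0 l3)
    (h4 : mat g *ᵥ mk5 0 0 1 0 0 = mk5 0 0 l4 0 0) : Good g := by
  have b12 := mat_Bf g (mk5 0 1 0 0 0) (mk5 0 0 0 1 0)
  have b34 := mat_Bf g (mk5 0 0 1 0 0) (mk5 0 0 0 0 1)
  rw [h1, h2, Bf_mk5, Bf_mk5] at b12
  rw [h3, h4, Bf_mk5, Bf_mk5] at b34
  have e12 : l2 * l1 = 1 := by linear_combination b12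
  have e34 : l4 * l3 = 1 := by linear_combination b34
  have hl1 : l1 ≠ 0 := right_ne_zero_of_mul_eq_one e12
  have hl2 : l2 ≠ 0 := left_ne_zero_of_mul_eq_one e12
  have hl3 : l3 ≠ 0 := right_ne_zero_of_mul_eq_one e34
  have hl4 : l4 ≠ 0 := left_ne_zero_of_mul_eq_one e34
  obtain ⟨a, b, c, d, e, hw⟩ : ∃ a b c d e, mat g *ᵥ mk5 1 0 0 0 0 = mk5 a b c d e :=
    ⟨_, _, _, _, _, mk5_eta _⟩
  have c1 := mat_Bf g (mk5 1 0 0 0 0) (mk5 0 0 0 1 0)
  have c2 := mat_Bf g (mk5 1 0 0 0 0) (mk5 0 1 0 0 0)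
  have c3 := mat_Bf g (mk5 1 0 0 0 0) (mk5 0 0 0 0 1)
  have c4 := mat_Bf g (mk5 1 0 0 0 0) (mk5 0 0 1 0 0)
  rw [hw, h1, Bf_mk5, Bf_mk5] at c1
  rw [hw, h2, Bf_mk5, Bf_mk5] at c2
  rw [hw, h3, Bf_mk5, Bf_mk5] at c3
  rw [hw, h4, Bf_mk5, Bf_mk5] at c4
  have hb : b = 0 := by
    have : b * l1 = 0 := by linear_combination c1
    exact (mul_eq_zero.1 this).resolve_right hl1
  have hd : d = 0 := by
    have : d * l2 = 0 := by linear_combination c2
    exact (mul_eq_zero.1 this).resolve_right hl2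
  have hc : c = 0 := by
    have : c * l3 = 0 := by linear_combination c3
    exact (mul_eq_zero.1 this).resolve_right hl3
  have he : e = 0 := by
    have : e * l4 = 0 := by linear_combination c4
    exact (mul_eq_zero.1 this).resolve_right hl4
  subst hb hc hd he
  have q := mat_pres g (mk5 1 0 0 0 0)
  rw [hw, Q_mk5, Q_mk5] at q
  refine ⟨1, g, ⟨a, l2, l4, l1, l3, by linear_combination q, e12, e34, ?_⟩, by simp⟩
  intro z x1 x2 y1 y2
  rw [mk5_decomp z x1 x2 y1 y2]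
  simp only [Matrix.mulVec_add, Matrix.mulVec_smul, h1, h2, h3, h4, hw]
  simp only [mk5_smul, mk5_add]
  congr 1 <;> ring

theorem Good_D (g : O5 F) (l1 l2 l3 : F) (h1 : mat g *ᵥ mk5 0 0 0 1 0 = mk5 0 0 0 l1 0)
    (h2 : mat g *ᵥ mk5 0 1 0 0 0 = mk5 0 l2 0 0 0)
    (h3 : mat g *ᵥ mk5 0 0 0 0 1 = mk5 0 0 0 0 l3) : Good g := by
  have b12 := mat_Bf g (mk5 0 1 0 0 0) (mk5 0 0 0 1 0)
  rw [h1, h2, Bf_mk5, Bf_mk5] at b12
  have e12 : l2 * l1 = 1 := by linear_combination b12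
  have hl1 : l1 ≠ 0 := right_ne_zero_of_mul_eq_one e12
  have hl2 : l2 ≠ 0 := left_ne_zero_of_mul_eq_one e12
  obtain ⟨a, b, c, d, e, hw⟩ : ∃ a b c d e, mat g *ᵥ mk5 0 0 1 0 0 = mk5 a b c d e :=
    ⟨_, _, _, _, _, mk5_eta _⟩
  have c1 := mat_Bf g (mk5 0 0 1 0 0) (mk5 0 0 0 1 0)
  have c2 := mat_Bf g (mk5 0 0 1 0 0) (mk5 0 1 0 0 0)
  have c3 := mat_Bf g (mk5 0 0 1 0 0) (mk5 0 0 0 0 1)
  rw [hw, h1, Bf_mk5, Bf_mk5] at c1
  rw [hw, h2, Bf_mk5, Bf_mk5] at c2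
  rw [hw, h3, Bf_mk5, Bf_mk5] at c3
  have hb : b = 0 := by
    have : b * l1 = 0 := by linear_combination c1
    exact (mul_eq_zero.1 this).resolve_right hl1
  have hd : d = 0 := by
    have : d * l2 = 0 := by linear_combination c2
    exact (mul_eq_zero.1 this).resolve_right hl2
  have hc : c * l3 = 1 := by linear_combination c3
  have hc0 : c ≠ 0 := left_ne_zero_of_mul_eq_one hc
  subst hb hd
  have q := mat_pres g (mk5 0 0 1 0 0)
  rw [hw, Q_mk5, Q_mk5] at q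
  apply Good_step (sp (Lm (a / c)) (Lm_symp _))
  apply Good_E _ l1 l2 l3 c
  · rw [step_mulVec, h1, act_Lm]
    congr 1 <;> ring
  · rw [step_mulVec, h2, act_Lm]
    congr 1 <;> ring
  · rw [step_mulVec, h3, act_Lm]
    congr 1 <;> ring
  · rw [step_mulVec, hw, act_Lm]
    congr 1
    · field_simp
      ring
    · field_simp
      linear_combination q

theorem Good_C1 (g : O5 F) (l1 l2 a c e : F) (h1 : mat g *ᵥ mk5 0 0 0 1 0 = mk5 0 0 0 l1 0)
    (h2 : mat g *ᵥ mk5 0 1 0 0 0 = mk5 0 l2 0 0 0)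
    (hw : mat g *ᵥ mk5 0 0 0 0 1 = mk5 a 0 c 0 e) (he : e ≠ 0) : Good g := by
  have q := mat_pres g (mk5 0 0 0 0 1)
  rw [hw, Q_mk5, Q_mk5] at q
  apply Good_step (sp (Lp (-a / e)) (Lp_symp _))
  apply Good_D _ l1 l2 e
  · rw [step_mulVec, h1, act_Lp]
    congr 1 <;> ring
  · rw [step_mulVec, h2, act_Lp]
    congr 1 <;> ring
  · rw [step_mulVec, hw, act_Lp]
    congr 1
    · field_simp
      ring
    · field_simp
      linear_combination q

theorem Good_C (g : O5 F) (l1 l2 : F) (h1 : mat g *ᵥ mk5 0 0 0 1 0 = mk5 0 0 0 l1 0)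
    (h2 : mat g *ᵥ mk5 0 1 0 0 0 = mk5 0 l2 0 0 0) : Good g := by
  have b12 := mat_Bf g (mk5 0 1 0 0 0) (mk5 0 0 0 1 0)
  rw [h1, h2, Bf_mk5, Bf_mk5] at b12
  have e12 : l2 * l1 = 1 := by linear_combination b12
  have hl1 : l1 ≠ 0 := right_ne_zero_of_mul_eq_one e12
  have hl2 : l2 ≠ 0 := left_ne_zero_of_mul_eq_one e12
  obtain ⟨a, b, c, d, e, hw⟩ : ∃ a b c d e, mat g *ᵥ mk5 0 0 0 0 1 = mk5 a b c d e :=
    ⟨_, _, _, _, _, mk5_eta _⟩
  have c1 := mat_Bf g (mk5 0 0 0 0 1) (mk5 0 0 0 1 0)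
  have c2 := mat_Bf g (mk5 0 0 0 0 1) (mk5 0 1 0 0 0)
  rw [hw, h1, Bf_mk5, Bf_mk5] at c1
  rw [hw, h2, Bf_mk5, Bf_mk5] at c2
  have hb : b = 0 := by
    have : b * l1 = 0 := by linear_combination c1
    exact (mul_eq_zero.1 this).resolve_right hl1
  have hd : d = 0 := by
    have : d * l2 = 0 := by linear_combination c2
    exact (mul_eq_zero.1 this).resolve_right hl2
  subst hb hd
  by_cases he : e = 0
  · subst he
    have q := mat_pres g (mk5 0 0 0 0 1)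
    rw [hw, Q_mk5, Q_mk5] at q
    have ha : a = 0 := by
      have : a ^ 2 = 0 := by linear_combination q
      exact pow_eq_zero_iff (two_ne_zero) |>.1 this
    subst ha
    have hc : c ≠ 0 := by
      rintro rfl
      obtain ⟨a', b', c', d', e', hw'⟩ : ∃ a b c d e, mat g *ᵥ mk5 0 0 1 0 0 = mk5 a b c d e :=
        ⟨_, _, _, _, _, mk5_eta _⟩
      have c3 := mat_Bf g (mk5 0 0 1 0 0) (mk5 0 0 0 0 1)
      rw [hw, hw', Bf_mk5, Bf_mk5] at c3
      apply zero_ne_one (α := F)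
      linear_combination c3
    apply Good_step (sp (Lm 1) (Lm_symp _))
    apply Good_C1 _ l1 l2 (-c) c (-c)
    · rw [step_mulVec, h1, act_Lm]
      congr 1 <;> ring
    · rw [step_mulVec, h2, act_Lm]
      congr 1 <;> ring
    · rw [step_mulVec, hw, act_Lm]
      congr 1 <;> ring
    · exact neg_ne_zero.2 hc
  · exact Good_C1 g l1 l2 a c e h1 h2 hw he

theorem Good_B (g : O5 F) (l1 : F) (h1 : mat g *ᵥ mk5 0 0 0 1 0 = mk5 0 0 0 l1 0) : Good g := by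
  obtain ⟨a, b, c, d, e, hw⟩ : ∃ a b c d e, mat g *ᵥ mk5 0 1 0 0 0 = mk5 a b c d e :=
    ⟨_, _, _, _, _, mk5_eta _⟩
  have c1 := mat_Bf g (mk5 0 1 0 0 0) (mk5 0 0 0 1 0)
  rw [hw, h1, Bf_mk5, Bf_mk5] at c1
  have hb : b * l1 = 1 := by linear_combination c1
  have hb0 : b ≠ 0 := left_ne_zero_of_mul_eq_one hb
  have q := mat_pres g (mk5 0 1 0 0 0)
  rw [hw, Q_mk5, Q_mk5] at q
  apply Good_step (sp (Um (e / b) (-a / b) (-c / b)) (Um_symp _ _ _))
  apply Good_C _ l1 b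
  · rw [step_mulVec, h1, act_Um]
    congr 1 <;> ring
  · rw [step_mulVec, hw, act_Um]
    congr 1
    · field_simp
      ring
    · field_simp
      ring
    · field_simp
      linear_combination q
    · field_simp
      ring

theorem Good_A1 (g : O5 F) (a b c d e : F) (hw : mat g *ᵥ mk5 0 0 0 1 0 = mk5 a b c d e)
    (hd : d ≠ 0) : Good g := by
  have q := mat_pres g (mk5 0 0 0 1 0)
  rw [hw, Q_mk5, Q_mk5] at q
  apply Good_step (sp (Up (-c / d) (a / d) (e / d)) (Up_symp _ _ _))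
  apply Good_B _ d
  rw [step_mulVec, hw, act_Up]
  congr 1
  · field_simp
    ring
  · field_simp
    linear_combination q
  · field_simp
    ring
  · field_simp
    ring

theorem Good_A (g : O5 F) : Good g := by
  obtain ⟨a, b, c, d, e, hw⟩ : ∃ a b c d e, mat g *ᵥ mk5 0 0 0 1 0 = mk5 a b c d e :=
    ⟨_, _, _, _, _, mk5_eta _⟩
  by_cases hd : d = 0
  · subst hd
    by_cases hc : c = 0
    · subst hc
      by_cases he : e = 0
      · subst he
        have q := mat_pres g (mk5 0 0 0 1 0)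
        rw [hw, Q_mk5, Q_mk5] at q
        have ha : a = 0 := by
          have : a ^ 2 = 0 := by linear_combination q
          exact pow_eq_zero_iff (two_ne_zero) |>.1 this
        subst ha
        have hb : b ≠ 0 := by
          rintro rfl
          obtain ⟨a', b', c', d', e', hw'⟩ :
              ∃ a b c d e, mat g *ᵥ mk5 0 1 0 0 0 = mk5 a b c d e :=
            ⟨_, _, _, _, _, mk5_eta _⟩
          have c3 := mat_Bf g (mk5 0 1 0 0 0) (mk5 0 0 0 1 0)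
          rw [hw, hw', Bf_mk5, Bf_mk5] at c3
          apply zero_ne_one (α := F)
          linear_combination c3
        apply Good_step (sp (Um 1 0 1) (Um_symp _ _ _))
        refine Good_A1 _ 0 b b b (-b) ?_ hb
        · rw [step_mulVec, hw, act_Um]
          congr 1 <;> ring
      · apply Good_step (sp (Um 0 0 1) (Um_symp _ _ _))
        refine Good_A1 _ a b b (-e) e ?_ (neg_ne_zero.2 he)
        · rw [step_mulVec, hw, act_Um]
          congr 1 <;> ring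
    · apply Good_step (sp (Um 1 0 0) (Um_symp _ _ _))
      refine Good_A1 _ a b c c (e - b) ?_ hc
      · rw [step_mulVec, hw, act_Um]
        congr 1 <;> ring
  · exact Good_A1 g a b c d e hw hd

end Cfsg.Agent.Lib.Helper6.K5
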