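import Mathlib
import Cfsg.Agent.Lib.Helper7.SpPerfect
import Cfsg.Agent.Lib.Helper7.SpSimple
import Cfsg.Prelude.Def_Classical

/-!
`Sp₄(F)` is perfect and `PSp₄(F)` is simple for every field with more than two elements.
-/

namespace Cfsg.Agent.Lib.Helper6
open Matrix Cfsg.Agent.Lib.Helper7

theorem Sp4_perfect {F : Type*} [Field F] (hF : ∃ a : F, a ≠ 0 ∧ a ≠ 1) :
    commutator (Matrix.symplecticGroup (Fin 2) F) = ⊤ := by
  by_cases h2 : (2 : F) = 0
  · obtain ⟨a, ha0, ha1⟩ := hF
    refine sp_perfect_of_sq ha0 (fun h => ha1 ?_)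
    have : (a - 1) ^ 2 = 0 := by linear_combination h - a * h2 + h2
    have := pow_eq_zero_iff (two_ne_zero) |>.1 this
    linear_combination this
  · have hom : ∀ i j : Fin 2, om (Fin 2) F (eL F i) (eL F j) = 0 := by
      intro i j
      rw [om_eL]; simp [eL]
    refine sp_perfect_of_two (u := eL F 0) (v := eL F 1) h2 (hom _ _) ?_ ?_ ?_ ?_
    · intro h0
      have := congrFun h0 (.inl 0)
      simp [eL] at this
    · intro h0
      have := congrFun h0 (.inl 1)
      simp [eL] at this
    · intro h0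
      have := congrFun h0 (.inl 0)
      simp [eL] at this
    · intro h0
      have := congrFun h0 (.inl 0)
      simp [eL] at this

theorem PSp4_simple {F : Type*} [Field F] (hF : ∃ a : F, a ≠ 0 ∧ a ≠ 1) :
    IsSimpleGroup (Cfsg.PSp 2 F) :=
  psp_isSimpleGroup (Sp4_perfect hF)

theorem PSp4_perfect {F : Type*} [Field F] (hF : ∃ a : F, a ≠ 0 ∧ a ≠ 1) :
    commutator (Cfsg.PSp 2 F) = ⊤ := by
  have : Group.IsPerfect (Matrix.symplecticGroup (Fin 2) F) := ⟨Sp4_perfect hF⟩
  have : Group.IsPerfect (Cfsg.PSp 2 F) := inferInstance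
  exact this.commutator_eq_top

end Cfsg.Agent.Lib.Helper6
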