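import Mathlib
import Cfsg.Agent.Lib.Helper6.K5c
import Cfsg.Agent.Lib.Helper6.Sp4Perfect

/-!
The image of `Sp₄(F)` in `O₅(F)` is the commutator subgroup.
-/

namespace Cfsg.Agent.Lib.Helper6.K5
open Matrix Cfsg.Agent.Lib.Helper6.Klein Cfsg.Agent.Lib.Helper6.Klein5

variable {F : Type*} [Field F]

theorem IsD_comm (t t' : O5 F) (ht : IsD t) (ht' : IsD t') : t * t' = t' * t := by
  obtain ⟨ε, l, m, l', m', -, -, -, h⟩ := ht
  obtain ⟨ε₂, l₂, m₂, l₂', m₂', -, -, -, h₂⟩ := ht'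
  apply mat_injective
  apply ext_mulVec5
  intro v
  rw [mat_mul, mat_mul, ← mulVec_mulVec, ← mulVec_mulVec, mk5_eta v, h, h₂, h, h₂]
  congr 1 <;> ring

theorem X_emb_diag (ε l m : F) (hε : ε = 1 ∨ ε = -1) (hl : l ≠ 0) (hm : m ≠ 0)
    (z x1 x2 y1 y2 : F) :
    X (emb (mk5 (ε * z) (l * x1) (m * x2) (l⁻¹ * y1) (m⁻¹ * y2))) =
      (ε * l⁻¹ * m⁻¹) • (Matrix.diagonal ![l * m, ε * l, 1, ε * m] *
        X (emb (mk5 z x1 x2 y1 y2)) * (Matrix.diagonal ![l * m, ε * l, 1, ε * m])ᵀ) := by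
  rw [Matrix.diagonal_transpose]
  ext i j
  rw [Matrix.smul_apply, Matrix.mul_diagonal, Matrix.diagonal_mul]
  rcases hε with rfl | rfl <;> fin_cases i <;> fin_cases j <;> simp [X, emb, mk5] <;> field_simp

theorem diag_JJ (ε l m : F) (hε : ε = 1 ∨ ε = -1) :
    Matrix.diagonal ![l * m, ε * l, 1, ε * m] * B2.JJ *
      (Matrix.diagonal ![l * m, ε * l, 1, ε * m])ᵀ = (l * m) • (B2.JJ : Matrix _ _ F) := by
  rw [Matrix.diagonal_transpose]
  ext i j
  rw [Matrix.smul_apply, Matrix.mul_diagonal, Matrix.diagonal_mul]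
  rcases hε with rfl | rfl <;> fin_cases i <;> fin_cases j <;> simp [B2.JJ] <;> ring

theorem diag_mul_diag (ε l m : F) (hε : ε = 1 ∨ ε = -1) (hl : l ≠ 0) (hm : m ≠ 0) :
    Matrix.diagonal ![l⁻¹ * m⁻¹, ε * l⁻¹, 1, ε * m⁻¹] * Matrix.diagonal ![l * m, ε * l, 1, ε * m] =
      (1 : Matrix (Fin 4) (Fin 4) F) := by
  rw [Matrix.diagonal_mul_diagonal, ← Matrix.diagonal_one]
  congr 1
  funext i
  rcases hε with rfl | rfl <;> fin_cases i <;> simp <;> field_simp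

theorem IsD_conj (t : O5 F) (ht : IsD t) (A : Matrix.symplecticGroup (Fin 2) F) :
    ∃ A' : Matrix.symplecticGroup (Fin 2) F, t * rho F A = rho F A' * t := by
  obtain ⟨ε, l, m, l', m', hε, hl, hm, h⟩ := ht
  have hl0 : l ≠ 0 := left_ne_zero_of_mul_eq_one hl
  have hm0 : m ≠ 0 := left_ne_zero_of_mul_eq_one hm
  obtain rfl : l' = l⁻¹ := eq_inv_of_mul_eq_one_right hl
  obtain rfl : m' = m⁻¹ := eq_inv_of_mul_eq_one_right hm
  have hε' : ε = 1 ∨ ε = -1 := by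
    have : (ε - 1) * (ε + 1) = 0 := by linear_combination hε
    rcases mul_eq_zero.1 this with h1 | h1
    · left; linear_combination h1
    · right; linear_combination h1
  set δ : Matrix (Fin 4) (Fin 4) F := Matrix.diagonal ![l * m, ε * l, 1, ε * m] with hδ
  set δ' : Matrix (Fin 4) (Fin 4) F := Matrix.diagonal ![l⁻¹ * m⁻¹, ε * l⁻¹, 1, ε * m⁻¹] with hδ'
  have h1 : δ' * δ = 1 := diag_mul_diag ε l m hε' hl0 hm0
  have hX : ∀ v, X (emb (mat t *ᵥ v)) = (ε * l⁻¹ * m⁻¹) • (δ * X (emb v) * δᵀ) := by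
    intro v
    rw [mk5_eta v, h]
    exact X_emb_diag ε l m hε' hl0 hm0 _ _ _ _ _
  have hJ : δ * B2.JJ * δᵀ = (l * m) • (B2.JJ : Matrix _ _ F) := diag_JJ ε l m hε'
  have hJ' : δ' * B2.JJ * δ'ᵀ = (l⁻¹ * m⁻¹) • (B2.JJ : Matrix _ _ F) := diag_JJ ε l⁻¹ m⁻¹ hε'
  have hA : re (A : Matrix I4 I4 F) * B2.JJ * (re (A : Matrix I4 I4 F))ᵀ = B2.JJ :=
    (B2.mem_symp_iff _).1 A.2
  have c1 : ∀ Z : Matrix (Fin 4) (Fin 4) F, δ' * (δ * Z) = Z := by
    intro Z
    rw [← Matrix.mul_assoc, h1, Matrix.one_mul]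
  have c2 : ∀ Z : Matrix (Fin 4) (Fin 4) F, δᵀ * (δ'ᵀ * Z) = Z := by
    intro Z
    rw [← Matrix.mul_assoc, ← Matrix.transpose_mul, h1, Matrix.transpose_one, Matrix.one_mul]
  have hsymp : (δ * re (A : Matrix I4 I4 F) * δ') * B2.JJ *
      (δ * re (A : Matrix I4 I4 F) * δ')ᵀ = B2.JJ := by
    have e1 : (δ * re (A : Matrix I4 I4 F) * δ') * B2.JJ *
        (δ * re (A : Matrix I4 I4 F) * δ')ᵀ =
        δ * (re (A : Matrix I4 I4 F) * (δ' * B2.JJ * δ'ᵀ) * (re (A : Matrix I4 I4 F))ᵀ) * δᵀ := by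
      simp only [Matrix.transpose_mul, Matrix.mul_assoc]
    rw [e1, hJ', Matrix.mul_smul, Matrix.smul_mul, hA, Matrix.mul_smul, Matrix.smul_mul, hJ,
      smul_smul]
    have : l⁻¹ * m⁻¹ * (l * m) = 1 := by field_simp
    rw [this, one_smul]
  refine ⟨sp _ hsymp, ?_⟩
  apply mat_injective
  apply ext_mulVec5
  intro v
  apply emb_injective
  apply X_inj
  rw [mat_mul, mat_mul, ← mulVec_mulVec, ← mulVec_mulVec, hX]
  have e2 : mat (rho F A) = M5 (A : Matrix I4 I4 F) := rfl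
  have e3 : mat (rho F (sp _ hsymp)) = M5 ((sp _ hsymp : Matrix.symplecticGroup (Fin 2) F) :
      Matrix I4 I4 F) := rfl
  rw [e2, e3, X_emb_M5 A.2, X_emb_M5 (sp _ hsymp).2, hX]
  have e4 : re ((sp _ hsymp : Matrix.symplecticGroup (Fin 2) F) : Matrix I4 I4 F) =
      δ * re (A : Matrix I4 I4 F) * δ' := B2.re_un _
  rw [e4]
  simp only [Matrix.transpose_mul, Matrix.mul_assoc, Matrix.mul_smul, Matrix.smul_mul, c1, c2]

theorem range_normal : (rho F).range.Normal := by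
  constructor
  rintro n ⟨A, rfl⟩ g
  obtain ⟨h, t, ht, rfl⟩ := Good_A g
  obtain ⟨A', hA'⟩ := IsD_conj t ht A
  refine ⟨h * A' * h⁻¹, ?_⟩
  rw [map_mul, map_mul, map_inv, _root_.mul_inv_rev]
  have : rho F A' = t * rho F A * t⁻¹ := by
    rw [hA', mul_inv_cancel_right]
  rw [this]
  group

theorem commutator_le_range : commutator (O5 F) ≤ (rho F).range := by
  have := range_normal (F := F)
  rw [commutator_def, Subgroup.commutator_le]
  intro a _ b _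
  obtain ⟨h1, t1, ht1, rfl⟩ := Good_A a
  obtain ⟨h2, t2, ht2, rfl⟩ := Good_A b
  rw [← QuotientGroup.eq_one_iff]
  have e : ∀ (h : Matrix.symplecticGroup (Fin 2) F) (t : O5 F),
      ((rho F h * t : O5 F) : O5 F ⧸ (rho F).range) = (t : O5 F ⧸ (rho F).range) := by
    intro h t
    have hm : rho F h ∈ (rho F).range := ⟨h, rfl⟩
    rw [QuotientGroup.mk_mul, (QuotientGroup.eq_one_iff _).2 hm, one_mul]
  have e' := map_commutatorElement (QuotientGroup.mk' (rho F).range) (rho F h1 * t1) (rho F h2 * t2)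
  simp only [QuotientGroup.mk'_apply] at e'
  rw [e', e, e, commutatorElement_eq_one_iff_mul_comm, ← QuotientGroup.mk_mul,
    ← QuotientGroup.mk_mul, IsD_comm t1 t2 ht1 ht2]

theorem range_le_commutator (hF : ∃ a : F, a ≠ 0 ∧ a ≠ 1) :
    (rho F).range ≤ commutator (O5 F) := by
  rintro _ ⟨A, rfl⟩
  have hA : A ∈ commutator (Matrix.symplecticGroup (Fin 2) F) := by
    rw [Sp4_perfect hF]
    trivial
  have := Subgroup.mem_map_of_mem (rho F) hA
  rw [commutator_def, Subgroup.map_commutator] at this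
  rw [commutator_def]
  exact Subgroup.commutator_mono le_top le_top this

end Cfsg.Agent.Lib.Helper6.K5
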