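import Mathlib
import Cfsg.Agent.Lib.Helper6.OmegaIso
import Cfsg.Agent.Lib.Helper6.SLCard

/-!
More generic lemmas for identifying `B ⧸ center B`, and homs from `SL₂` landing in commutator
subgroups.
-/

namespace Cfsg.Agent.Lib.Helper6
open Matrix

theorem quotient_center_equiv' {A B C : Type*} [Group A] [Group B] [Group C] (π : A →* B)
    (hπ : Function.Surjective π) (ψ : A →* C) (hψ : Function.Surjective ψ)
    (hN : ∀ a, ψ a = 1 ↔ ∀ a', π (a * a') = π (a' * a)) :
    Nonempty (B ⧸ Subgroup.center B ≃* C) := by
  obtain ⟨e⟩ := quotient_center_equiv π hπ ψ.ker (fun a => by rw [MonoidHom.mem_ker, hN])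
  exact ⟨e.trans (QuotientGroup.quotientKerEquivOfSurjective ψ hψ)⟩

theorem map_mem_commutator {G H : Type*} [Group G] [Group H] (f : G →* H) {x : G}
    (hx : x ∈ commutator G) : f x ∈ commutator H := by
  have h1 : f x ∈ (commutator G).map f := Subgroup.mem_map_of_mem f hx
  rw [commutator_def, Subgroup.map_commutator] at h1
  exact Subgroup.commutator_mono le_top le_top h1

theorem two_ne_zero_of_odd_card {F : Type*} [Field F] [Fintype F] (hodd : Odd (Fintype.card F)) :
    (2 : F) ≠ 0 := by
  intro h
  have hc : ringChar F = 2 := by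
    have := ringChar.dvd (R := F) (x := 2) (by exact_mod_cast h)
    rcases (Nat.dvd_prime Nat.prime_two).1 this with h1 | h1
    · exact absurd h1 (CharP.ringChar_ne_one)
    · exact h1
  have := FiniteField.even_card_of_char_two hc
  rcases hodd with ⟨k, hk⟩
  omega

theorem odd_card_of_two_ne_zero {F : Type*} [Field F] [Fintype F] (h2 : (2 : F) ≠ 0) :
    Odd (Fintype.card F) := by
  have hc : ringChar F ≠ 2 := by
    intro h
    apply h2
    have := ringChar.Nat.cast_ringChar (R := F)
    rw [h] at this
    exact_mod_cast this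
  exact Nat.odd_iff.2 (FiniteField.odd_card_of_char_ne_two hc)

theorem exists_sq_ne_one {F : Type*} [Field F] [Fintype F] (hF : 4 ≤ Fintype.card F) :
    ∃ a : F, a ≠ 0 ∧ a ^ 2 ≠ 1 := by
  classical
  obtain ⟨x, hx⟩ : IsCyclic Fˣ := by infer_instance
  refine ⟨x, Units.ne_zero x, fun h ↦ ?_⟩
  have h1 : orderOf x ≤ 2 := orderOf_le_of_pow_eq_one zero_lt_two (Units.ext <| by simpa using h)
  rw [orderOf_eq_card_of_forall_mem_zpowers hx, Nat.card_eq_fintype_card, Fintype.card_units] at h1
  omega

/-- A hom from `SL₂(q)`, `q ≥ 3`, to a group whose commutator subgroup has index `4` (needed only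
for odd `q`) lands in the commutator subgroup. -/
theorem hom_SL2_mem_commutator {F : Type*} [Field F] [Fintype F] (h3 : 3 ≤ Fintype.card F)
    {O : Type*} [Group O] (f : Matrix.SpecialLinearGroup (Fin 2) F →* O)
    (hidx : (2 : F) ≠ 0 → (commutator O).index = 4) (g : Matrix.SpecialLinearGroup (Fin 2) F) :
    f g ∈ commutator O := by
  by_cases h2 : (2 : F) = 0
  · have h4 : 4 ≤ Fintype.card F := by
      by_contra hlt
      have h5 : Fintype.card F = 3 := by omega
      exact two_ne_zero_of_odd_card (F := F) (by rw [h5]; decide) h2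
    obtain ⟨a, ha, hasq⟩ := exists_sq_ne_one h4
    apply map_mem_commutator
    rw [Matrix.SL2.commutator_eq_top ha hasq]
    exact Subgroup.mem_top _
  · have h4 : (4 : F) ≠ 0 := by
      have : (4 : F) = 2 * 2 := by norm_num
      rw [this]
      exact mul_ne_zero h2 h2
    induction g using SL_transvection_induction with
    | htransvec i j h c =>
      have h5 : Matrix.SpecialLinearGroup.transvection h c =
          (Matrix.SpecialLinearGroup.transvection h (c / 4)) ^ 4 := by
        rw [pow_succ, pow_succ, pow_succ, pow_one, ← Matrix.SpecialLinearGroup.transvection_add,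
          ← Matrix.SpecialLinearGroup.transvection_add, ← Matrix.SpecialLinearGroup.transvection_add]
        congr 1
        field_simp
        ring
      rw [h5, map_pow, ← hidx h2]
      exact Subgroup.pow_index_mem _ _
    | hmul A B hA hB =>
      rw [map_mul]
      exact mul_mem hA hB

/-- the order of `SL₂(q)` -/
theorem card_SL2 {F : Type*} [Field F] [Fintype F] :
    Nat.card (Matrix.SpecialLinearGroup (Fin 2) F) =
      (Fintype.card F ^ 2 - 1) * Fintype.card F := by
  have hS := card_SL_field (F := F) 2 (by norm_num)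
  have hq1 : 1 < Fintype.card F := Fintype.one_lt_card
  simp only [Fin.prod_univ_two, Fin.val_zero, Fin.val_one, pow_zero, pow_one] at hS
  apply Nat.eq_of_mul_eq_mul_left (show 0 < Fintype.card F - 1 by omega)
  rw [hS]
  have : Fintype.card F ^ 2 - Fintype.card F = Fintype.card F * (Fintype.card F - 1) := by
    rw [Nat.mul_sub, mul_one, pow_two]
  rw [this]
  ring

end Cfsg.Agent.Lib.Helper6
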