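import Mathlib

set_option autoImplicit false

namespace Cfsg.Agent.Lib.Helper6

theorem dvd_card_of_fibers {X Y : Type*} [Finite X] (f : X → Y) (d : ℕ)
    (h : ∀ y, d ∣ Nat.card {x // f x = y}) : d ∣ Nat.card X := by
  classical
  have := Fintype.ofFinite X
  rw [Nat.card_eq_fintype_card, ← Finset.card_univ,
    Finset.card_eq_sum_card_fiberwise (f := f) (t := Finset.univ.image f) (fun x _ => by simp)]
  apply Finset.dvd_sum
  intro y _
  have := h y
  rwa [Nat.card_eq_fintype_card, Fintype.card_subtype] at this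

theorem dvd_card_of_orbits {Γ X : Type*} [Group Γ] [MulAction Γ X] [Finite X] (d : ℕ)
    (h : ∀ x : X, d ∣ Nat.card (MulAction.orbit Γ x)) : d ∣ Nat.card X := by
  apply dvd_card_of_fibers (fun x => (Quotient.mk'' x : MulAction.orbitRel.Quotient Γ X))
  intro q
  induction q using Quotient.inductionOn' with
  | h x =>
    have e : {x' // (Quotient.mk'' x' : MulAction.orbitRel.Quotient Γ X) = Quotient.mk'' x} ≃
        MulAction.orbit Γ x :=
      Equiv.subtypeEquivRight (fun x' => by rw [Quotient.eq'']; exact MulAction.orbitRel_apply)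
    rw [Nat.card_congr e]; exact h x

variable {G : Type*} [Group G]

/-- conjugation action of a subgroup on an invariant subset -/
@[instance_reducible]
def conjSubAction (H : Subgroup G) (S : G → Prop)
    (hS : ∀ a ∈ H, ∀ w, S w → S (a * w * a⁻¹)) : MulAction H {w // S w} where
  smul a w := ⟨a.1 * w.1 * a.1⁻¹, hS a.1 a.2 w.1 w.2⟩
  one_smul w := Subtype.ext (by
    show (1 : G) * w.1 * (1 : G)⁻¹ = w.1
    simp)
  mul_smul a b w := Subtype.ext (by
    show (a.1 * b.1) * w.1 * (a.1 * b.1)⁻¹ = a.1 * (b.1 * w.1 * b.1⁻¹) * a.1⁻¹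
    group)

theorem dvd_card_of_conj [Finite G] (H : Subgroup G) (S : G → Prop)
    (hS : ∀ a ∈ H, ∀ w, S w → S (a * w * a⁻¹)) (d : ℕ)
    (hd : ∀ w, S w → d * Nat.card (H ⊓ Subgroup.centralizer ({w} : Set G) : Subgroup G) ∣ Nat.card H) :
    d ∣ Nat.card {w // S w} := by
  let _ := conjSubAction H S hS
  apply dvd_card_of_orbits (Γ := H)
  intro w
  have h1 : Nat.card H = Nat.card (H ⧸ MulAction.stabilizer H w) *
      Nat.card (MulAction.stabilizer H w) := Subgroup.card_eq_card_quotient_mul_card_subgroup _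
  rw [← Nat.card_congr (MulAction.orbitEquivQuotientStabilizer H w)] at h1
  have e : MulAction.stabilizer H w ≃ (H ⊓ Subgroup.centralizer ({w.1} : Set G) : Subgroup G) :=
    { toFun := fun a => ⟨a.1.1, a.1.2, by
        show a.1.1 ∈ Subgroup.centralizer ({w.1} : Set G)
        rw [Subgroup.mem_centralizer_singleton_iff]
        have h2 : a.1 • w = w := a.2
        have h3 : a.1.1 * w.1 * a.1.1⁻¹ = w.1 := congrArg Subtype.val h2
        exact mul_inv_eq_iff_eq_mul.mp h3⟩
      invFun := fun b => ⟨⟨b.1, b.2.1⟩, by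
        rw [MulAction.mem_stabilizer_iff]
        apply Subtype.ext
        show b.1 * w.1 * b.1⁻¹ = w.1
        exact mul_inv_eq_iff_eq_mul.mpr (Subgroup.mem_centralizer_singleton_iff.mp b.2.2)⟩
      left_inv := fun a => rfl
      right_inv := fun b => rfl }
  have h4 := hd w.1 w.2
  rw [← Nat.card_congr e, h1] at h4
  exact Nat.dvd_of_mul_dvd_mul_right Nat.card_pos h4

/-- left multiplication action of a subgroup on an invariant subset -/
@[instance_reducible]
def mulSubAction (D : Subgroup G) (S : G → Prop)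
    (hS : ∀ a ∈ D, ∀ w, S w → S (a * w)) : MulAction D {w // S w} where
  smul a w := ⟨a.1 * w.1, hS a.1 a.2 w.1 w.2⟩
  one_smul w := Subtype.ext (by
    show (1 : G) * w.1 = w.1
    simp)
  mul_smul a b w := Subtype.ext (by
    show (a.1 * b.1) * w.1 = a.1 * (b.1 * w.1)
    group)

theorem card_dvd_of_mul [Finite G] (D : Subgroup G) (S : G → Prop)
    (hS : ∀ a ∈ D, ∀ w, S w → S (a * w)) : Nat.card D ∣ Nat.card {w // S w} := by
  let _ := mulSubAction D S hS
  apply dvd_card_of_orbits (Γ := D)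
  intro w
  have e : D ≃ MulAction.orbit D w := Equiv.ofBijective
    (fun a => ⟨a • w, MulAction.mem_orbit w a⟩) ⟨by
      intro a b hab
      have h1 : a • w = b • w := congrArg Subtype.val hab
      have h2 : a.1 * w.1 = b.1 * w.1 := congrArg Subtype.val h1
      exact Subtype.ext (mul_right_cancel h2), by
      rintro ⟨x, a, rfl⟩
      exact ⟨a, rfl⟩⟩
  rw [Nat.card_congr e]

theorem inf_centralizer_conj_eq {E : Subgroup G} (hEc : ∀ a ∈ E, ∀ b ∈ E, a * b = b * a)
    {a : G} (ha : a ∈ E) (w : G) :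
    E ⊓ Subgroup.centralizer ({a * w * a⁻¹} : Set G) = E ⊓ Subgroup.centralizer ({w} : Set G) := by
  ext b
  simp only [Subgroup.mem_inf, Subgroup.mem_centralizer_singleton_iff]
  constructor
  · rintro ⟨hb, h⟩
    refine ⟨hb, ?_⟩
    have hab := hEc a ha b hb
    have h1 : b * w = a⁻¹ * (b * (a * w * a⁻¹)) * a := by
      have : a⁻¹ * (b * (a * w * a⁻¹)) * a = a⁻¹ * (b * a) * w := by group
      rw [this, ← hab]; group
    rw [h1, h]
    have : a⁻¹ * (a * w * a⁻¹ * b) * a = w * (a⁻¹ * (b * a)) := by group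
    rw [this, ← hab]; group
  · rintro ⟨hb, h⟩
    refine ⟨hb, ?_⟩
    have hab := hEc a ha b hb
    have hab' : b * a⁻¹ = a⁻¹ * b := by
      rw [eq_inv_mul_iff_mul_eq, ← mul_assoc, hab]; group
    calc b * (a * w * a⁻¹) = (b * a) * w * a⁻¹ := by group
      _ = a * (b * w) * a⁻¹ := by rw [← hab]; group
      _ = a * w * (b * a⁻¹) := by rw [h]; group
      _ = a * w * a⁻¹ * b := by rw [hab']; group

theorem inf_centralizer_mul_eq {E : Subgroup G} (hEc : ∀ a ∈ E, ∀ b ∈ E, a * b = b * a)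
    {a : G} (ha : a ∈ E) (w : G) :
    E ⊓ Subgroup.centralizer ({a * w} : Set G) = E ⊓ Subgroup.centralizer ({w} : Set G) := by
  ext b
  simp only [Subgroup.mem_inf, Subgroup.mem_centralizer_singleton_iff]
  constructor
  · rintro ⟨hb, h⟩
    refine ⟨hb, ?_⟩
    have hab := hEc a ha b hb
    have h1 : a * (b * w) = a * (w * b) := by
      rw [← mul_assoc, hab, mul_assoc, h, mul_assoc]
    exact mul_left_cancel h1
  · rintro ⟨hb, h⟩
    refine ⟨hb, ?_⟩
    have hab := hEc a ha b hb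
    rw [← mul_assoc, ← hab, mul_assoc, h, mul_assoc]

/-- In a group containing an elementary abelian subgroup of order `p ^ 3`, the number of
solutions of `w ^ p = 1` (in any overgroup `T`) is divisible by `p ^ 2`. -/
theorem sq_dvd_card_pow_eq_one [Finite G] (p : ℕ) [hp : Fact p.Prime] (T E : Subgroup G)
    (hET : E ≤ T) (hEc : ∀ a ∈ E, ∀ b ∈ E, a * b = b * a) (hEp : ∀ a ∈ E, a ^ p = 1)
    (hE3 : Nat.card E = p ^ 3) : p ^ 2 ∣ Nat.card {w : G // w ∈ T ∧ w ^ p = 1} := by
  apply dvd_card_of_fibers (fun w => E ⊓ Subgroup.centralizer ({w.1} : Set G))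
  intro D
  rw [Nat.card_congr (Equiv.subtypeSubtypeEquivSubtypeInter (fun w : G => w ∈ T ∧ w ^ p = 1)
    (fun w => E ⊓ Subgroup.centralizer ({w} : Set G) = D))]
  by_cases hne : ∃ w : G, (w ∈ T ∧ w ^ p = 1) ∧ E ⊓ Subgroup.centralizer ({w} : Set G) = D
  · obtain ⟨w₀, -, hw₀⟩ := hne
    have hDE : D ≤ E := hw₀ ▸ inf_le_left
    have hDcard : Nat.card D ∣ p ^ 3 := hE3 ▸ Subgroup.card_dvd_of_le hDE
    obtain ⟨k, hk3, hk⟩ := (Nat.dvd_prime_pow hp.out).mp hDcard
    by_cases hk1 : k ≤ 1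
    · apply dvd_card_of_conj E
      · rintro a ha w ⟨⟨hwT, hwp⟩, hwD⟩
        refine ⟨⟨T.mul_mem (T.mul_mem (hET ha) hwT) (T.inv_mem (hET ha)), ?_⟩, ?_⟩
        · rw [conj_pow, hwp]; group
        · rw [inf_centralizer_conj_eq hEc ha, hwD]
      · rintro w ⟨-, hwD⟩
        rw [hwD, hk, hE3, ← pow_add]
        exact pow_dvd_pow p (by omega)
    · have h1 : Nat.card D ∣ Nat.card {w : G // (w ∈ T ∧ w ^ p = 1) ∧
          E ⊓ Subgroup.centralizer ({w} : Set G) = D} := by
        apply card_dvd_of_mul D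
        rintro a ha w ⟨⟨hwT, hwp⟩, hwD⟩
        have haE : a ∈ E := hDE ha
        have haw : Commute a w := by
          have : a ∈ E ⊓ Subgroup.centralizer ({w} : Set G) := hwD ▸ ha
          exact Subgroup.mem_centralizer_singleton_iff.mp this.2
        refine ⟨⟨T.mul_mem (hET haE) hwT, ?_⟩, ?_⟩
        · rw [haw.mul_pow, hwp, hEp a haE, one_mul]
        · rw [inf_centralizer_mul_eq hEc haE, hwD]
      refine dvd_trans ?_ h1
      rw [hk]
      exact pow_dvd_pow p (by omega)
  · have : IsEmpty {w : G // (w ∈ T ∧ w ^ p = 1) ∧ E ⊓ Subgroup.centralizer ({w} : Set G) = D} :=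
      ⟨fun w => hne ⟨w.1, w.2⟩⟩
    rw [Nat.card_of_isEmpty]
    exact dvd_zero _

/-- A `p`-group `T` containing an elementary abelian subgroup of order `p ^ 3` has a central
element `z` of order `p` and an element `e` of order `p` outside `⟨z⟩` whose centralizer in `T`
has index at most `p`. -/
theorem exists_small_class [Finite G] (p : ℕ) [hp : Fact p.Prime] (T E : Subgroup G)
    (hT : IsPGroup p T)
    (hET : E ≤ T) (hEc : ∀ a ∈ E, ∀ b ∈ E, a * b = b * a) (hEp : ∀ a ∈ E, a ^ p = 1)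
    (hE3 : Nat.card E = p ^ 3) :
    ∃ z e : G, z ∈ T ∧ e ∈ T ∧ (∀ t ∈ T, t * z = z * t) ∧ orderOf z = p ∧ orderOf e = p ∧
      e ∉ Subgroup.zpowers z ∧
      Nat.card T ∣ p * Nat.card (T ⊓ Subgroup.centralizer ({e} : Set G) : Subgroup G) := by
  classical
  have hp1 : 1 < p := hp.out.one_lt
  have hTnt : Nontrivial T := by
    rw [← Finite.one_lt_card_iff_nontrivial]
    have h1 : Nat.card E ≤ Nat.card T := Subgroup.card_le_of_le hET
    have h2 : 1 < p ^ 3 := Nat.one_lt_pow (by norm_num) hp1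
    omega
  have hZnt : Nontrivial (Subgroup.center T) := hT.center_nontrivial
  have hZp : IsPGroup p (Subgroup.center T) := hT.to_subgroup _
  have hpZ : p ∣ Nat.card (Subgroup.center T) := by
    obtain ⟨n, hn⟩ := hZp.exists_card_eq
    have hn0 : n ≠ 0 := by
      rintro rfl
      rw [pow_zero] at hn
      have := Finite.one_lt_card_iff_nontrivial.mpr hZnt
      omega
    rw [hn]
    exact dvd_pow_self p hn0
  obtain ⟨z', hz'⟩ := exists_prime_orderOf_dvd_card' (G := Subgroup.center T) p hpZ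
  set z : G := z'.1.1 with hz
  have hzT : z ∈ T := z'.1.2
  have hzo : orderOf z = p := by
    rw [hz, Subgroup.orderOf_coe, Subgroup.orderOf_coe]; exact hz'
  have hzc : ∀ t ∈ T, t * z = z * t := by
    intro t ht
    have := Subgroup.mem_center_iff.mp z'.2 ⟨t, ht⟩
    exact congrArg Subtype.val this
  by_contra hcon
  push Not at hcon
  obtain ⟨n, hn⟩ := hT.exists_card_eq
  have hX : p ^ 2 ∣ Nat.card {w : G // w ∈ T ∧ orderOf w = p ∧ w ∉ Subgroup.zpowers z} := by
    apply dvd_card_of_conj T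
    · rintro a ha w ⟨hwT, hwo, hwz⟩
      refine ⟨T.mul_mem (T.mul_mem ha hwT) (T.inv_mem ha), ?_, ?_⟩
      · have : a * w * a⁻¹ = MulAut.conj a w := rfl
        rw [this, MulEquiv.orderOf_eq, hwo]
      · intro h
        apply hwz
        obtain ⟨k, hk⟩ := Subgroup.mem_zpowers_iff.mp h
        rw [Subgroup.mem_zpowers_iff]
        refine ⟨k, ?_⟩
        have hcomm : Commute a (z ^ k) := (show Commute a z from hzc a ha).zpow_right k
        have h1 : w = a⁻¹ * (a * w * a⁻¹) * a := by group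
        rw [h1, ← hk, mul_assoc, ← hcomm.eq]; group
    · rintro w ⟨hwT, hwo, hwz⟩
      have h1 := hcon z w hzT hwT hzc hzo hwo hwz
      have h2 : Nat.card (T ⊓ Subgroup.centralizer ({w} : Set G) : Subgroup G) ∣ p ^ n :=
        hn ▸ Subgroup.card_dvd_of_le inf_le_left
      obtain ⟨m, hmn, hm⟩ := (Nat.dvd_prime_pow hp.out).mp h2
      rw [hm, hn, ← pow_succ'] at h1
      rw [hm, hn, ← pow_add]
      apply pow_dvd_pow
      by_contra h3
      exact h1 (pow_dvd_pow p (by omega))
  have hΩ := sq_dvd_card_pow_eq_one p T E hET hEc hEp hE3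
  have hdisj : Disjoint (fun w : G => w ∈ T ∧ orderOf w = p ∧ w ∉ Subgroup.zpowers z)
      (fun w : G => w ∈ Subgroup.zpowers z) := by
    rw [Pi.disjoint_iff]
    intro g
    rw [Prop.disjoint_iff]
    rintro ⟨⟨-, -, h1⟩, h2⟩
    exact h1 h2
  have e1 : {w : G // w ∈ T ∧ w ^ p = 1} ≃
      {w : G // (w ∈ T ∧ orderOf w = p ∧ w ∉ Subgroup.zpowers z) ∨ w ∈ Subgroup.zpowers z} :=
    Equiv.subtypeEquivRight (fun w => by
      constructor
      · rintro ⟨hwT, hwp⟩
        by_cases hwz : w ∈ Subgroup.zpowers z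
        · exact Or.inr hwz
        · refine Or.inl ⟨hwT, ?_, hwz⟩
          rcases (Nat.dvd_prime hp.out).mp (orderOf_dvd_of_pow_eq_one hwp) with h | h
          · rw [orderOf_eq_one_iff] at h
            exact absurd (h ▸ Subgroup.one_mem _) hwz
          · exact h
      · rintro (⟨hwT, hwo, -⟩ | hwz)
        · exact ⟨hwT, by rw [← hwo]; exact pow_orderOf_eq_one w⟩
        · refine ⟨Subgroup.zpowers_le.mpr hzT hwz, ?_⟩
          obtain ⟨k, rfl⟩ := Subgroup.mem_zpowers_iff.mp hwz
          rw [← zpow_natCast, ← zpow_mul, mul_comm, zpow_mul, zpow_natCast, ← hzo,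
            pow_orderOf_eq_one, one_zpow])
  rw [Nat.card_congr e1, Nat.card_congr (subtypeOrEquiv _ _ hdisj), Nat.card_sum] at hΩ
  have hzp : Nat.card {w : G // w ∈ Subgroup.zpowers z} = p := by
    have : Nat.card (Subgroup.zpowers z) = p := by rw [Nat.card_zpowers, hzo]
    exact this
  rw [hzp] at hΩ
  have h5 : p ^ 2 ∣ p := (Nat.dvd_add_right hX).mp hΩ
  have h6 := Nat.le_of_dvd hp.out.pos h5
  nlinarith

end Cfsg.Agent.Lib.Helper6
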